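import Cfsg.Agent.H6.UBChain
import Cfsg.Agent.H6.DCE4
import Cfsg.Agent.H6.J4.N.Pres
import Cfsg.Agent.H4.Golay

set_option autoImplicit false
set_option maxRecDepth 100000
set_option Elab.async false

namespace Cfsg.H6.M24

open Cfsg.H4.Golay

def PP (bs : List ℕ) (b p : ℕ) : Bool :=
  Nat.ble 24 b || Nat.ble 24 p || ((p == b || !bs.elem p) &&
    (!([0, 1, 2, 3, 4].all bs.elem) || Nat.testBit 5279 p == Nat.testBit 5279 b))

theorem link1 : link 5279 31 [2 ^ 0, 2 ^ 1, 2 ^ 2, 2 ^ 3, 2 ^ 4] = true := by decide +kernel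

theorem chain1 : chain [(2130606, 191), (2121909, 191), (42232, 2097343), (3277413, 2155199), (145176, 2156287), (13148440, 3335935), (8391797, 3340287), (6554826, 11730943)] ([0,1,2,3,4,7,5].map (2 ^ ·)) = true := by decide +kernel

theorem card_le : Nat.card M24 ≤ 244823040 := by
  have h := card_le_of_chain M24.subtype pt 24 (fun v => ⟨_, idx_lt v, pt_idx v⟩) PP ?_ [0,1,2,3,4,7,5] []
  · have e : fixS M24.subtype (([0,1,2,3,4,7,5].reverse ++ []).map pt) = ⊥ := by
      rw [eq_bot_iff]
      intro g hg
      refine Subtype.ext (eq_one_of_chain g.2 _ _ chain1 fun m hm => ?_)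
      obtain ⟨i, hi, rfl⟩ := List.mem_map.mp hm
      exact inv_pow (by revert i; decide) (hg _ (List.mem_map_of_mem
        (by rw [List.append_nil, List.mem_reverse]; exact hi)))
    rw [e, List.map_nil, fixS_nil, Subgroup.card_top, Subgroup.card_bot, mul_one] at h
    exact h.trans (by decide +kernel)
  · intro bs b p g hg hv
    have hv' : g.1 (pt p) = pt b := by
      rw [Equiv.Perm.inv_eq_iff_eq] at hv
      exact hv.symm
    unfold PP
    simp only [Bool.or_eq_true, Nat.ble_eq, Bool.and_eq_true, beq_iff_eq, Bool.not_eq_true']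
    by_cases hb : 24 ≤ b
    · exact Or.inl (Or.inl hb)
    by_cases hp : 24 ≤ p
    · exact Or.inl (Or.inr hp)
    refine Or.inr ⟨?_, ?_⟩
    · by_cases h1 : p ∈ bs
      · left
        have h2 : g.1 (pt p) = pt p := hg _ (List.mem_map_of_mem h1)
        rw [← idx_pt p (by omega), ← h2, hv', idx_pt b (by omega)]
      · exact Or.inr (by simpa using h1)
    · cases h1 : [0, 1, 2, 3, 4].all bs.elem
      · exact Or.inl rfl
      · right
        have h2 : ∀ i ∈ [0, 1, 2, 3, 4], H4.Golay.Inv g.1 (2 ^ i) := fun i hi =>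
          inv_pow (by revert i; decide) (hg _ (List.mem_map_of_mem
            (List.mem_of_elem_eq_true (List.all_eq_true.mp h1 i hi))))
        have h3 := inv_of_link g.2 link1 (by simpa using h2) (pt p)
        rw [hv', idx_pt b (by omega), idx_pt p (by omega)] at h3
        exact h3.symm

noncomputable def tt : ℕ → ℕ := nthN [984818244535754528103549039458486304,308023258138109102077767743165238273,777122598265669282099436395728864258,486356405534869472960961568792870977,509270271442242502864240461021728452,500183324889179106972982406023780931,978895263479427363442933747665740192,976339845748723265787542735012144352,648674848930525781895613194541903126,872678178064102793495352033545802193,674120376762685196046210018206463089,770050093830379743137985361740869098,583708835667853036069297498379887848,217647114107871655923894557646900940,726290750194769435188908495856009346]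

noncomputable def img (x p : ℕ) : ℕ := tb (tt x) p

theorem hinv : ∀ x < 15, Inverse (tt (invL 72936578009030319896994569032761600 x)) (tt x) := by decide +kernel

/-- The letters as permutations of the 24 points. -/
noncomputable def ev (x : ℕ) : Equiv.Perm GolayPt := if h : x < 15 then prm _ _ (hinv x h) else 1

theorem lab : Lab (MonoidHom.id _) ev pt img 24 15 := by
  refine ⟨fun x _ h p hp => ⟨?_, (hinv x h p hp).2.1⟩, fun p hp q hq e => ?_⟩
  · rw [MonoidHom.id_apply, ev, dif_pos h]
    show pt (tb (tt x) (idx (pt p))) = _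
    rw [idx_pt p hp]
    rfl
  · rw [← idx_pt p hp, e, idx_pt q hq]

theorem ora : Oracle ev img 15 (List.range 24) := by
  intro w hw
  unfold fixB at hw
  simp only [Bool.and_eq_true, List.all_eq_true, Nat.beq_eq, List.mem_range] at hw
  rw [← inv_eq_one]
  ext1 v
  have := (lab.tr hw.1 (idx_lt v)).1
  rwa [hw.2 _ (idx_lt v), pt_idx] at this

theorem mem (x : ℕ) : ev x ∈ M24 := by
  have : ∀ x < 15, ∀ g ∈ basis, H4.Golay.red basis (pull (tt (invL 72936578009030319896994569032761600 x)) g) = 0 ∧ ∀ i < 24,
      g.testBit (tb (tt (invL 72936578009030319896994569032761600 x)) i) = (pull (tt (invL 72936578009030319896994569032761600 x)) g).testBit i := by decide +kernel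
  unfold ev
  split_ifs with h
  · exact prm_mem _ (this x h)
  · exact one_mem _

theorem v6 : dvChk img 24 15 6 [[10,5,12,6,1,4,10,9]] [] [6,16,21] (unp 2 (nat_lit 0x150000000600)) = true := by
  decide +kernel

theorem v5 : dvChk img 24 15 5 [[6,2,1,8,11,3], [1,13,4,4,7,12,1], [4,6,13,6,12,6,5]] [[10,5,12,6,1,4,10,9]] [5,6,8,9,11,13,14,15,16,17,18,19,20,21,22,23] (unp 15 (nat_lit 0x90200000600000013000000080200001600000008000000090100000f00000015000000050200001000000014000000050100000e0000000500)) = true := by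
  decide +kernel

theorem v4 : dvChk img 24 15 4 [[2,9,6,8,3], [13,4,4,7,12], [4,8,7,2,10,3]] [[6,2,1,8,11,3], [1,13,4,4,7,12,1], [4,6,13,6,12,6,5], [10,5,12,6,1,4,10,9]] [4,5,6,7,8,9,10,11,12,13,14,15,16,17,18,19,20,21,22,23] (unp 19 (nat_lit 0xc010000080100000c0000000e00000005030000130000001200000010010000100000000f0100000f0000000a000000070000000901000006010000060000000b000000040100000400)) = true := by
  decide +kernel

theorem v3 : dvChk img 24 15 3 [[5,12,4], [9,6,8]] [[2,9,6,8,3], [13,4,4,7,12], [4,8,7,2,10,3], [6,2,1,8,11,3], [1,13,4,4,7,12,1], [4,6,13,6,12,6,5], [10,5,12,6,1,4,10,9]] [3,4,5,6,7,8,9,10,11,12,13,14,15,16,17,18,19,20,21,22,23] (unp 20 (nat_lit 0x17000000140100000e0100000701000014000000130100001101000010010000080000000c01000009000000100000000d0100000b0100000b000000130000000601000006000000030100000300)) = true := by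
  decide +kernel

theorem v2 : dvChk img 24 15 2 [[5,12,4], [6,9,11]] [[5,12,4], [9,6,8], [2,9,6,8,3], [13,4,4,7,12], [4,8,7,2,10,3], [6,2,1,8,11,3], [1,13,4,4,7,12,1], [4,6,13,6,12,6,5], [10,5,12,6,1,4,10,9]] [2,3,4,5,6,7,8,9,10,11,12,13,14,15,16,17,18,19,20,21,22,23] (unp 21 (nat_lit 0x150100000701000012030000120100000b0100000b0000001300000011030000100300000a010000100100000c000000090000000800000006030000060100000303000003010000030000000f0000000201)) = true := by
  decide +kernel

theorem v1 : dvChk img 24 15 1 [[6], [3,1]] [[5,12,4], [6,9,11], [5,12,4], [9,6,8], [2,9,6,8,3], [13,4,4,7,12], [4,8,7,2,10,3], [6,2,1,8,11,3], [1,13,4,4,7,12,1], [4,6,13,6,12,6,5], [10,5,12,6,1,4,10,9]] [1,2,3,4,5,6,7,8,9,10,11,12,13,14,15,16,17,18,19,20,21,22,23] (unp 22 (nat_lit 0x170100000c0100001301000010000000120000000d0100000a010000130000000a000000090100000b0000000500000007010000080000000200000004010000030100000400000003000000010100000d0000000100)) = true := by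
  decide +kernel

theorem v0 : dvChk img 24 15 0 [[1], [2]] [[6], [3,1], [5,12,4], [6,9,11], [5,12,4], [9,6,8], [2,9,6,8,3], [13,4,4,7,12], [4,8,7,2,10,3], [6,2,1,8,11,3], [1,13,4,4,7,12,1], [4,6,13,6,12,6,5], [10,5,12,6,1,4,10,9]] [0,1,2,3,4,5,6,7,8,9,10,11,12,13,14,15,16,17,18,19,20,21,22,23] (unp 23 (nat_lit 0x11000000140100000a0200000a00000006020000060000000f0100000d0000000b000000090100000802000008000000070000000502000004020000040100000400000003010000020200000200000001020000000100000000)) = true := by
  decide +kernel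

def sg : List (List ℕ) := [[], [1], [2], [3], [4], [5], [6], [7], [8], [9], [10], [11], [12], [13], [14]]

def Ws : List (List ℕ) := [[1], [2], [6], [3,1], [5,12,4], [6,9,11], [5,12,4], [9,6,8], [2,9,6,8,3], [13,4,4,7,12], [4,8,7,2,10,3], [6,2,1,8,11,3], [1,13,4,4,7,12,1], [4,6,13,6,12,6,5], [10,5,12,6,1,4,10,9]]

theorem dv : 244823040 ∣ Nat.card (gen ev Ws) := Dvd.dvd.trans (by decide +kernel) (lab.dvd v0 (lab.dvd v1 (lab.dvd v2 (lab.dvd v3 (lab.dvd v4 (lab.dvd v5 (lab.dvd v6 (one_dvd _))))))))

theorem iso (h : Nat.card J4.N.Grp = 244823040) : Nonempty (J4.N.Grp ≃* M24) := by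
  obtain ⟨ψ, hψ⟩ := J4.N.lift (ora.good_evS (σ := sg) (by decide +kernel))
    (ora.rels_evS (by decide +kernel))
  have : Finite J4.N.Grp := Nat.finite_of_card_ne_zero (by rw [h]; norm_num)
  have h1 : ψ.range ≤ M24 := by
    rw [range_eq_genS hψ J4.N.hX]
    exact gen_le fun w _ => evL_mem_of_letters fun x _ => mem x
  have h2 : gen ev Ws ≤ ψ.range := by
    rw [show Ws = Ws.map (subst sg) by decide +kernel, ← gen_evS]
    exact gen_le fun w _ => ⟨evL J4.N.ev w, by rw [map_evL, funext hψ]⟩
  have h3 := (Nat.le_of_dvd Nat.card_pos dv).trans (Subgroup.card_le_of_le h2)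
  have h4 := Subgroup.eq_of_le_of_card_ge h1 (card_le.trans h3)
  have h5 := (UB.range ψ h).2
  exact ⟨(MonoidHom.ofInjective (injective_of_card_range ψ (by omega))).trans
    (MulEquiv.subgroupCongr h4)⟩

end Cfsg.H6.M24
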