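import Cfsg.Agent.H6.Inv

/-! A conjugacy class identified with the points of a permutation table; tuples of elements of the
class with given relations are conjugate to standard tuples. -/

set_option autoImplicit false

namespace Cfsg.H6

variable {Γ : Type*} [Group Γ]

/-- The point `0` is fixed by exactly the elements commuting with the value of `tw`. -/
structure TM (φ : Γ →* Equiv.Perm ℕ) (ev : ℕ → Γ) (img : ℕ → ℕ → ℕ) (n m inv : ℕ) (bs tw : List ℕ) :
    Prop where
  act : IsAct φ ev img n m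
  good : Good ev inv
  ora : Oracle ev img m bs
  cent : ∀ g, (φ g)⁻¹ 0 = 0 ↔ Commute g (evL ev tw)
  lt : ∀ g, (φ g)⁻¹ 0 < n
  sq : evL ev tw * evL ev tw = 1

variable {φ : Γ →* Equiv.Perm ℕ} {ev : ℕ → Γ} {img : ℕ → ℕ → ℕ} {n m inv : ℕ} {bs tw : List ℕ}

theorem TM.of_prim (ha : IsAct φ ev img n m) (hev : Good ev inv) (ho : Oracle ev img m bs)
    {Ws X : List (List ℕ)} {I : List Ivl} (hp : Prim φ ev (gen ev Ws) n I)
    (hc : IsCoatom (gen ev Ws)) (hX : gen ev X = ⊤) {p : ℕ} {x : List ℕ}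
    (h : (X.all (inR m) && fixB img m bs (tw ++ tw) && (comms inv tw Ws).all (fixB img m bs) &&
      (inR m (x ++ tw ++ invW inv x ++ invW inv tw) && Nat.blt p n &&
        !Nat.beq (trF img (x ++ tw ++ invW inv x ++ invW inv tw) p) p)) = true) :
    TM φ ev img n m inv bs tw := by
  rw [Bool.and_eq_true, Bool.and_eq_true, Bool.and_eq_true] at h
  obtain ⟨⟨⟨h1, h2⟩, h3⟩, h4⟩ := h
  have hle : gen ev Ws ≤ Subgroup.centralizer {evL ev tw} := gen_le fun w hw => by
    rw [Subgroup.mem_centralizer_singleton_iff]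
    have := ho.rels h3 _ (List.mem_map.mpr ⟨w, hw, rfl⟩)
    rwa [evL_append, evL_append, evL_append, evL_invW hev, evL_invW hev, mul_inv_eq_one,
      mul_inv_eq_iff_eq_mul] at this
  have hne : Subgroup.centralizer {evL ev tw} ≠ ⊤ := fun e => by
    have h5 := ha.ne_one h4
    have h6 : evL ev x ∈ Subgroup.centralizer {evL ev tw} := e ▸ Subgroup.mem_top _
    rw [Subgroup.mem_centralizer_singleton_iff] at h6
    apply h5
    rw [evL_append, evL_append, evL_append, evL_invW hev, evL_invW hev, h6]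
    group
  have heq := (hc.le_iff.mp hle).resolve_left hne
  refine ⟨ha, hev, ho, fun g => ?_, fun g => ?_, by rw [← evL_append]; exact ho _ h2⟩
  · rw [Commute, SemiconjBy, ← Subgroup.mem_centralizer_singleton_iff, heq, hp.stab, mem_fixS']
    simp
  · have := gen_preserves (φ := φ) (ev := ev) (S := Set.Iio n) (Set.finite_Iio n) (Ws := X)
      (fun w hw p hp => by
        have := ha.trF (List.all_eq_true.mp h1 w hw) hp
        rw [this.1]; exact this.2) g (hX ▸ Subgroup.mem_top g) 0 (by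
          have := hp.one_lt; show 0 < n; omega)
    exact this

/-- The element `x` of the class sits at the point `p`. -/
def At (φ : Γ →* Equiv.Perm ℕ) (τ x : Γ) (p : ℕ) : Prop := ∃ g, x = g⁻¹ * τ * g ∧ (φ g)⁻¹ 0 = p

theorem At.conj {τ x : Γ} {p : ℕ} (h : At φ τ x p) (k : Γ) : At φ τ (k⁻¹ * x * k) ((φ k)⁻¹ p) := by
  obtain ⟨g, rfl, rfl⟩ := h
  exact ⟨g * k, by group, by rw [map_mul, mul_inv_rev, Equiv.Perm.mul_apply]⟩

theorem At.isConj {τ x : Γ} {p : ℕ} (h : At φ τ x p) : IsConj τ x := by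
  obtain ⟨g, rfl, _⟩ := h
  exact isConj_iff.mpr ⟨g⁻¹, by rw [inv_inv]⟩

theorem exists_at {τ x : Γ} (h : IsConj τ x) : ∃ p, At φ τ x p := by
  obtain ⟨g, rfl⟩ := isConj_iff.mp h
  exact ⟨_, g⁻¹, by rw [inv_inv], rfl⟩

theorem TM.comm (T : TM φ ev img n m inv bs tw) {x y : Γ} {p : ℕ} (h : At φ (evL ev tw) x p) :
    Commute y x ↔ (φ y)⁻¹ p = p := by
  obtain ⟨g, rfl, rfl⟩ := h
  have h1 := T.cent (g * y * g⁻¹)
  rw [map_mul, map_mul, mul_inv_rev, mul_inv_rev, map_inv, inv_inv, Equiv.Perm.mul_apply,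
    Equiv.Perm.mul_apply, ← Equiv.Perm.eq_inv_iff_eq] at h1
  rw [h1]
  unfold Commute SemiconjBy
  constructor
  · intro e
    rw [show g * y * g⁻¹ * evL ev tw = g * (y * (g⁻¹ * evL ev tw * g)) * g⁻¹ by group, e]
    group
  · intro e
    rw [show y * (g⁻¹ * evL ev tw * g) = g⁻¹ * (g * y * g⁻¹ * evL ev tw) * g by group, e]
    group

theorem TM.unique (T : TM φ ev img n m inv bs tw) {x y : Γ} {p : ℕ} (h : At φ (evL ev tw) x p)
    (h' : At φ (evL ev tw) y p) : x = y := by
  obtain ⟨g, rfl, rfl⟩ := h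
  obtain ⟨k, rfl, e⟩ := h'
  have h1 := (T.cent (k * g⁻¹)).mp (by
    rw [map_mul, mul_inv_rev, map_inv, inv_inv, Equiv.Perm.mul_apply, e]
    simp)
  rw [show k⁻¹ * evL ev tw * k = k⁻¹ * (evL ev tw * (k * g⁻¹)) * g by group, ← h1.eq]
  group

theorem TM.at_lt (T : TM φ ev img n m inv bs tw) {x : Γ} {p : ℕ} (h : At φ (evL ev tw) x p) :
    p < n := by
  obtain ⟨g, _, rfl⟩ := h
  exact T.lt g

theorem TM.sq_of (T : TM φ ev img n m inv bs tw) {x : Γ} (h : IsConj (evL ev tw) x) :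
    x * x = 1 := by
  obtain ⟨g, rfl⟩ := isConj_iff.mp h
  rw [show g * evL ev tw * g⁻¹ * (g * evL ev tw * g⁻¹) = g * (evL ev tw * evL ev tw) * g⁻¹ by group,
    T.sq]
  group

/-- A word of the class: its point, a word leading to the point, the word. -/
abbrev Std : Type := ℕ × List ℕ × List ℕ

noncomputable def stdChk (img : ℕ → ℕ → ℕ) (m inv : ℕ) (bs tw : List ℕ) (e : Std) : Bool :=
  inR m e.2.1 && Nat.beq (trF img e.2.1 0) e.1 && inR m e.2.2 &&
    fixB img m bs (invW inv e.2.1 ++ tw ++ e.2.1 ++ invW inv e.2.2)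

theorem TM.std (T : TM φ ev img n m inv bs tw) {e : Std} (h : stdChk img m inv bs tw e = true) :
    inR m e.2.2 = true ∧ At φ (evL ev tw) (evL ev e.2.2) e.1 := by
  unfold stdChk at h
  simp only [Bool.and_eq_true, Nat.beq_eq] at h
  obtain ⟨⟨⟨h1, h2⟩, h3⟩, h4⟩ := h
  have h5 := T.ora _ h4
  rw [evL_append, evL_append, evL_append, evL_invW T.good, evL_invW T.good, mul_inv_eq_one] at h5
  have h6 : 0 < n := by have := T.lt 1; simpa using this
  exact ⟨h3, evL ev e.2.1, h5.symm, (T.act.trF h1 h6).1.trans h2⟩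

/-- Tuples of elements of the class with the relations `R` and the inequalities `N`. -/
structure Tup (τ : Γ) (k : ℕ) (R N : List (List ℕ)) (xs : ℕ → Γ) : Prop where
  cj : ∀ j < k, IsConj τ (xs j)
  rel : Rels xs R
  ne : ∀ w ∈ N, evL xs w ≠ 1

theorem evL_conj (xs : ℕ → Γ) (h : Γ) (w : List ℕ) :
    evL (fun j => h⁻¹ * xs j * h) w = h⁻¹ * evL xs w * h := by
  induction w with
  | nil => simp [evL]
  | cons x w ih => rw [evL_cons, evL_cons, ih]; group

theorem Tup.conj {τ : Γ} {k : ℕ} {R N : List (List ℕ)} {xs : ℕ → Γ} (h : Tup τ k R N xs) (g : Γ) :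
    Tup τ k R N fun j => g⁻¹ * xs j * g := by
  refine ⟨fun j hj => (h.cj j hj).trans (isConj_iff.mpr ⟨g⁻¹, by rw [inv_inv]⟩), fun w hw => ?_,
    fun w hw e => h.ne w hw ?_⟩
  · rw [evL_conj, h.rel w hw]; group
  · rw [evL_conj] at e
    rw [show evL xs w = g * (g⁻¹ * evL xs w * g) * g⁻¹ by group, e]; group

/-- The standard words. -/
def sW (S : List Std) : List (List ℕ) := S.map fun e => e.2.2

/-- The first `i` entries of a tuple can be moved to the standard words. -/
def Rig (ev : ℕ → Γ) (tw : List ℕ) (S : List Std) (k : ℕ) (R N : List (List ℕ)) (i : ℕ) : Prop :=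
  ∀ xs, Tup (evL ev tw) k R N xs → ∃ h, ∀ j < i, h⁻¹ * xs j * h = evS ev (sW S) j

theorem Rig.zero {S : List Std} {k : ℕ} {R N : List (List ℕ)} : Rig ev tw S k R N 0 :=
  fun _ _ => ⟨1, by simp⟩

noncomputable def allB (f : ℕ → Bool) (n : ℕ) : Bool :=
  allR (fun b => allR (fun p => Nat.ble n p || f p) (Nat.mul b 256) 256) 0 (n / 256 + 1)

theorem allB_spec {f : ℕ → Bool} {n : ℕ} (h : allB f n = true) : ∀ p < n, f p = true := by
  intro p hp
  have h1 := allR_spec h (p / 256) (Nat.zero_le _) (by omega)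
  have h2 := allR_spec h1 p (by show p / 256 * 256 ≤ p; omega) (by show p < p / 256 * 256 + 256; omega)
  rcases Bool.or_eq_true _ _ ▸ h2 with h3 | h3
  · rw [Nat.ble_eq] at h3; omega
  · exact h3

/-- One step: commuting, non-commuting and different earlier entries; generators fixing the earlier
points, units; excluded points with leading word, relation and moved point. -/
structure Step where
  cm : List ℕ
  nc : List ℕ
  df : List ℕ
  Ws : List (List ℕ)
  us : List ℕ
  K : List (ℕ × List ℕ × List ℕ × ℕ)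

noncomputable def stepChk (img : ℕ → ℕ → ℕ) (n m inv : ℕ) (bs tw : List ℕ) (S : List Std)
    (R N : List (List ℕ)) (i : ℕ) (L : List Std) (s : Step) : Bool :=
  Nat.ble i S.length && L.all (stdChk img m inv bs tw) &&
  (s.cm.all fun j => Nat.blt j i && R.elem [j, i, j, i]) &&
  (s.nc.all fun j => Nat.blt j i && N.elem [j, i, j, i]) &&
  (s.df.all fun j => Nat.blt j i && N.elem [j, i]) &&
  s.Ws.all (fixB img m ((S.take i).map Prod.fst)) &&
  (s.K.all fun e => inR m e.2.1 && Nat.beq (trF img e.2.1 0) e.1 && R.elem e.2.2.1 &&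
    e.2.2.1.all (fun j => Nat.ble j i) &&
    (inR m (subst ((sW S).take i ++ [invW inv e.2.1 ++ tw ++ e.2.1]) e.2.2.1) &&
    Nat.blt e.2.2.2 n && !Nat.beq (trF img
      (subst ((sW S).take i ++ [invW inv e.2.1 ++ tw ++ e.2.1]) e.2.2.1) e.2.2.2) e.2.2.2)) &&
  orbK img s.Ws (fun M => allB (fun p =>
    s.cm.any (fun j => !Nat.beq (trF img (nthW (sW S) j) p) p) ||
    s.nc.any (fun j => Nat.beq (trF img (nthW (sW S) j) p) p) || bit M p ||
    s.df.any (fun j => Nat.beq (nthN (S.map Prod.fst) j) p) ||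
    s.K.any fun e => Nat.beq e.1 p) n) s.us (maskL (L.map Prod.fst))

theorem nthN_eq (L : List ℕ) (i : ℕ) : nthN L i = L.getD i 0 := by
  induction L generalizing i with
  | nil => rfl
  | cons w L ih => cases i with
    | zero => rfl
    | succ j => exact ih j

theorem commute_iff_sq {x y : Γ} (hx : x * x = 1) (hy : y * y = 1) :
    Commute x y ↔ x * (y * (x * y)) = 1 := by
  have h1 := inv_eq_of_mul_eq_one_right hx
  have h2 := inv_eq_of_mul_eq_one_right hy
  rw [← mul_assoc, mul_eq_one_iff_eq_inv, mul_inv_rev, h1, h2]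
  rfl

theorem TM.among (T : TM φ ev img n m inv bs tw) {S L : List Std} {k i : ℕ} {R N : List (List ℕ)}
    {s : Step} (hS : S.all (stdChk img m inv bs tw) = true) (hik : i < k)
    (h : stepChk img n m inv bs tw S R N i L s = true) (xs : ℕ → Γ)
    (hx : Tup (evL ev tw) k R N xs) (hr : ∃ h, ∀ j < i, h⁻¹ * xs j * h = evS ev (sW S) j) :
    ∃ h, (∀ j < i, h⁻¹ * xs j * h = evS ev (sW S) j) ∧
      ∃ e ∈ L, h⁻¹ * xs i * h = evL ev e.2.2 := by
  obtain ⟨g, hg⟩ := hr
  have hy := hx.conj g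
  suffices H : ∃ h, (∀ j < i, Commute h (evS ev (sW S) j)) ∧
      ∃ e ∈ L, h⁻¹ * (g⁻¹ * xs i * g) * h = evL ev e.2.2 by
    obtain ⟨h, h1, e, he, h2⟩ := H
    refine ⟨g * h, fun j hj => ?_, e, he, by rw [← h2]; group⟩
    rw [show (g * h)⁻¹ * xs j * (g * h) = h⁻¹ * (g⁻¹ * xs j * g) * h by group, hg j hj, mul_assoc,
      ← (h1 j hj).eq]
    group
  have hg' : ∀ j < i, (fun j => g⁻¹ * xs j * g) j = evS ev (sW S) j := hg
  have e0 : g⁻¹ * xs i * g = (fun j => g⁻¹ * xs j * g) i := rfl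
  rw [e0]
  generalize (fun j => g⁻¹ * xs j * g) = ys at hy hg'
  clear e0 hg hx xs
  unfold stepChk at h
  simp only [Bool.and_eq_true, List.all_eq_true, Nat.blt_eq, Nat.ble_eq, Nat.beq_eq] at h
  obtain ⟨⟨⟨⟨⟨⟨⟨h1, h2⟩, h3⟩, h4⟩, h5⟩, h6⟩, h7⟩, h8⟩ := h
  have hst : ∀ j < i, inR m (nthW (sW S) j) = true ∧ ys j = evL ev (nthW (sW S) j) ∧
      At φ (evL ev tw) (ys j) (nthN (S.map Prod.fst) j) := by
    intro j hj
    have hj' : j < S.length := by omega
    have := T.std (List.all_eq_true.mp hS _ (List.getElem_mem hj'))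
    have e1 : (sW S).getD j [] = S[j].2.2 := by
      rw [sW, List.getD_eq_getElem _ _ (by simpa using hj'), List.getElem_map]
    rw [nthW_eq, nthN_eq, hg' j hj, evS, e1, List.getD_eq_getElem _ _ (by simpa using hj'),
      List.getElem_map]
    exact ⟨this.1, rfl, this.2⟩
  set K := fixS φ ((S.take i).map Prod.fst)
  have hlt : ∀ b ∈ (S.take i).map Prod.fst, b < n := by
    intro b hb
    obtain ⟨e, he, rfl⟩ := List.mem_map.mp hb
    exact T.at_lt (T.std (List.all_eq_true.mp hS _ (List.mem_of_mem_take he))).2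
  obtain ⟨M, hM, hf⟩ := orbK_sound (P := fun p => p < n ∧ ∃ e ∈ L, p ∈ orb φ K e.1) (by
      intro w hw p ⟨hp, e, he, ho⟩
      have h9 := h6 w hw
      have h10 := T.act.mem_fixS hlt h9
      unfold fixB at h9
      rw [Bool.and_eq_true] at h9
      have h11 := T.act.trF h9.1 hp
      exact ⟨h11.2, e, he, h11.1 ▸ orb_step ho h10⟩) _ _ (by
      intro p hp
      obtain ⟨e, he, rfl⟩ := List.mem_map.mp (maskL_spec hp)
      exact ⟨T.at_lt (T.std (h2 e he)).2, e, he, mem_orb_self _ _ _⟩) h8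
  obtain ⟨p, hp⟩ := exists_at (φ := φ) (hy.cj i hik)
  have hpn := T.at_lt hp
  have h9 := allB_spec hf p hpn
  simp only [Bool.or_eq_true, List.any_eq_true, Nat.beq_eq] at h9
  have hsq : ∀ j < i, Commute (ys j) (ys i) ↔ evL ys [j, i, j, i] = 1 := fun j hj => by
    rw [commute_iff_sq (T.sq_of (hy.cj j (by omega))) (T.sq_of (hy.cj i hik))]
    simp [evL]
  rcases h9 with (((⟨j, hj, h9⟩ | ⟨j, hj, h9⟩) | h9) | ⟨j, hj, h9⟩) | ⟨e, he, h9⟩
  · exfalso
    obtain ⟨k1, k2⟩ := h3 j hj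
    obtain ⟨k3, k4, _⟩ := hst j k1
    have := (T.comm hp).mp ((hsq j k1).mpr (hy.rel _ (List.mem_of_elem_eq_true k2)))
    rw [k4, (T.act.trF k3 hpn).1] at this
    rw [this, Nat.beq_refl] at h9
    exact absurd h9 (by decide)
  · exfalso
    obtain ⟨k1, k2⟩ := h4 j hj
    obtain ⟨k3, k4, _⟩ := hst j k1
    refine hy.ne _ (List.mem_of_elem_eq_true k2) ((hsq j k1).mp ((T.comm hp).mpr ?_))
    rw [k4, (T.act.trF k3 hpn).1, h9]
  · obtain ⟨_, e, he, g, hg, e1⟩ := hM p (bit_spec h9)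
    refine ⟨g⁻¹, fun j hj => ?_, e, he, ?_⟩
    · obtain ⟨_, _, k5⟩ := hst j hj
      rw [← hg' j hj]
      refine ((T.comm k5).mpr (mem_fixS'.mp hg _ ?_)).inv_left
      rw [nthN_eq, List.getD_eq_getElem _ _ (by simp; omega), List.getElem_map]
      exact List.mem_map.mpr ⟨_, List.mem_take_iff_getElem.mpr ⟨j, by simp; omega, rfl⟩, rfl⟩
    · have := T.unique hp (e1 ▸ (T.std (h2 e he)).2.conj g)
      rw [this]; group
  · exfalso
    obtain ⟨k1, k2⟩ := h5 j hj
    obtain ⟨_, _, k5⟩ := hst j k1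
    refine hy.ne _ (List.mem_of_elem_eq_true k2) ?_
    rw [evL_cons, evL_singleton, T.unique k5 (h9 ▸ hp)]
    exact T.sq_of (hy.cj i hik)
  · exfalso
    obtain ⟨⟨⟨⟨k1, k2⟩, k3⟩, k4⟩, k5⟩ := h7 e he
    have k6 : ys i = evL ev (invW inv e.2.1 ++ tw ++ e.2.1) := by
      refine T.unique hp ⟨evL ev e.2.1, by rw [evL_append, evL_append, evL_invW T.good], ?_⟩
      rw [(T.act.trF k1 (by omega)).1, k2, h9]
    refine T.act.ne_one (p := e.2.2.2) (by
      simp only [Bool.and_eq_true, Nat.blt_eq]; exact k5) ?_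
    rw [← evL_subst, ← hy.rel _ (List.mem_of_elem_eq_true k3)]
    refine evL_congr fun j hj => ?_
    have hl : ((sW S).take i).length = i := by simp [sW]; omega
    unfold evS
    rcases (k4 j hj).lt_or_eq with e1 | e1
    · rw [List.getD_append _ _ _ _ (by omega), hg' j e1, evS, List.getD_eq_getElem?_getD,
        List.getD_eq_getElem?_getD, List.getElem?_take_of_lt e1]
    · rw [List.getD_append_right _ _ _ _ (by omega), e1, hl, Nat.sub_self, k6]
      rfl

/-- Tuples whose first entries can be moved to `S` can be moved to `S0`. -/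
def Br (ev : ℕ → Γ) (tw : List ℕ) (S0 : List Std) (k : ℕ) (R N : List (List ℕ)) (S : List Std) :
    Prop :=
  ∀ xs, Tup (evL ev tw) k R N xs → (∃ h, ∀ j < S.length, h⁻¹ * xs j * h = evS ev (sW S) j) →
    ∃ h, ∀ j < k, h⁻¹ * xs j * h = evS ev (sW S0) j

theorem Br.done {S0 : List Std} {k : ℕ} {R N : List (List ℕ)} {S : List Std}
    (h : (S == S0 && Nat.beq S.length k) = true) : Br ev tw S0 k R N S := by
  simp only [Bool.and_eq_true, beq_iff_eq, Nat.beq_eq] at h
  intro xs _ e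
  rwa [h.2, h.1] at e

theorem TM.br (T : TM φ ev img n m inv bs tw) {S0 S L : List Std} {k : ℕ} {R N : List (List ℕ)}
    {s : Step} (h : (Nat.blt S.length k && S.all (stdChk img m inv bs tw) &&
      stepChk img n m inv bs tw S R N S.length L s) = true)
    (hL : ∀ e ∈ L, Br ev tw S0 k R N (S ++ [e])) : Br ev tw S0 k R N S := by
  rw [Bool.and_eq_true, Bool.and_eq_true, Nat.blt_eq] at h
  intro xs hx hr
  obtain ⟨g, h1, e, he, h2⟩ := T.among h.1.2 h.1.1 h.2 xs hx hr
  refine hL e he xs hx ⟨g, fun j hj => ?_⟩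
  rw [List.length_append, List.length_singleton] at hj
  have hl : (sW S).length = S.length := by simp [sW]
  have e0 : sW (S ++ [e]) = sW S ++ [e.2.2] := by simp [sW]
  rcases (Nat.lt_succ_iff.mp hj).lt_or_eq with e1 | e1
  · rw [h1 j e1, e0, evS, evS, List.getD_append _ _ _ _ (by omega)]
  · rw [e1, h2, e0, evS, List.getD_append_right _ _ _ _ (by omega), hl, Nat.sub_self]
    rfl

theorem Br.rig {S0 : List Std} {k : ℕ} {R N : List (List ℕ)} {S : List Std}
    (h : Br ev tw S0 k R N S) (h' : Rig ev tw S k R N S.length) : Rig ev tw S0 k R N k :=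
  fun xs hx => h xs hx (h' xs hx)

end Cfsg.H6
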