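import Cfsg.Agent.H6.Fis4
import Cfsg.Agent.H6.More2
import Cfsg.Agent.H6.PG
import Cfsg.Prelude.Def_CaseTheorems

/-! Tuples in double covers; gluing of local identifications. -/

set_option autoImplicit false

namespace Cfsg.H6

open scoped commutatorElement

universe u v

section
variable {C : Type v} {Q : Type} [Group C] [Group Q] {π : C →* Q} {d : C} {evQ : ℕ → Q} {inv : ℕ}

/-- Pairs of words conjugate to the pair `t0`, `t1`. -/
def prChk (chk : List ℕ → Bool) (inv : ℕ) (t0 t1 : List ℕ) (PL : List (List ℕ × List ℕ × List ℕ)) :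
    Bool :=
  PL.all fun e => chk (invW inv e.2.2 ++ t0 ++ e.2.2 ++ invW inv e.1) &&
    chk (invW inv e.2.2 ++ t1 ++ e.2.2 ++ invW inv e.2.1)

def inPL (PL : List (List ℕ × List ℕ × List ℕ)) (u v : List ℕ) : Bool :=
  PL.any fun e => e.1 == u && e.2.1 == v

def pwPL (PL : List (List ℕ × List ℕ × List ℕ)) : List (List ℕ) → Bool
  | [] => true
  | u :: us => (PL.any fun e => e.1 == u) && us.all (inPL PL u) && pwPL PL us

theorem DC.nsq (h : DC π d) (hQ : Good evQ inv) {chk : List ℕ → Bool}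
    (ho : ∀ w, chk w = true → evL evQ w = 1) {Reps : List (List ℕ)}
    (hc : ∀ q : Q, q * q = 1 → ∃ w ∈ Reps, IsConj q (evL evQ w)) {t0 t1 p : List ℕ}
    {PL : List (List ℕ × List ℕ × List ℕ)} {us : List (List ℕ)}
    (hk : (prChk chk inv t0 t1 PL && chk (t0 ++ t0) && chk (t0 ++ t1 ++ invW inv (t1 ++ t0)) &&
      us.length % 2 == 1 && chk us.flatten && us.all (inPL PL p) && pwPL PL us &&
      Reps.all fun w => pwPL PL (w.map fun l => [l])) = true) (x : C) (hx : π x * π x = 1) :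
    x * x = 1 := by
  simp only [Bool.and_eq_true, beq_iff_eq, List.all_eq_true] at hk
  obtain ⟨⟨⟨⟨⟨⟨⟨k1, k2⟩, k3⟩, k4⟩, k5⟩, k6⟩, k7⟩, k8⟩ := hk
  have p1 : ∀ e ∈ PL, Pr (evL evQ t0) (evL evQ t1) (evL evQ e.1) (evL evQ e.2.1) := fun e he => by
    have := List.all_eq_true.mp k1 e he
    rw [Bool.and_eq_true] at this
    have a := ho _ this.1
    have b := ho _ this.2
    rw [evL_append, evL_append, evL_append, evL_invW hQ, evL_invW hQ, mul_inv_eq_one] at a b
    exact ⟨_, a, b⟩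
  have p2 : ∀ u v, inPL PL u v = true → Pr (evL evQ t0) (evL evQ t1) (evL evQ u) (evL evQ v) := by
    intro u v e
    obtain ⟨e, he, e1⟩ := List.any_eq_true.mp e
    simp only [Bool.and_eq_true, beq_iff_eq] at e1
    rw [← e1.1, ← e1.2]
    exact p1 e he
  have p3 : ∀ l : List (List ℕ), pwPL PL l = true → (∀ u ∈ l.map (evL evQ), IsConj (evL evQ t0) u) ∧
      (l.map (evL evQ)).Pairwise (Pr (evL evQ t0) (evL evQ t1)) := by
    intro l
    induction l with
    | nil => simp
    | cons u l ih =>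
      intro e
      simp only [pwPL, Bool.and_eq_true, List.any_eq_true, List.all_eq_true, beq_iff_eq] at e
      obtain ⟨⟨⟨e, he, rfl⟩, e2⟩, e3⟩ := e
      obtain ⟨g, g1, _⟩ := p1 e he
      rw [List.map_cons, List.forall_mem_cons, List.pairwise_cons]
      refine ⟨⟨g1 ▸ isConj_cj _ _, (ih e3).1⟩, fun v hv => ?_, (ih e3).2⟩
      obtain ⟨v, hv', rfl⟩ := List.mem_map.mp hv
      exact p2 _ _ (e2 v hv')
  have p4 : ∀ l : List (List ℕ), (l.map (evL evQ)).prod = evL evQ l.flatten := fun l => by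
    induction l with
    | nil => rfl
    | cons u l ih => rw [List.map_cons, List.prod_cons, ih, List.flatten_cons, evL_append]
  obtain ⟨q1, q2⟩ := h.lifts (t0 := evL evQ t0) (t1 := evL evQ t1) (p := evL evQ p)
    (us := us.map (evL evQ)) (by rw [← evL_append]; exact ho _ k2) (by
      have := ho _ k3
      rwa [evL_append, evL_invW hQ, mul_inv_eq_one, evL_append, evL_append] at this)
    (by rw [List.length_map]; exact Nat.odd_iff.mpr k4) (by rw [p4]; exact ho _ k5) (fun u hu => by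
      obtain ⟨v, hv, rfl⟩ := List.mem_map.mp hu
      exact p2 _ _ (k6 v hv)) (p3 us k7).1 (p3 us k7).2
  obtain ⟨w, hw, e⟩ := hc _ hx
  obtain ⟨g, e1⟩ := IsConj.exists_cj e
  obtain ⟨g, rfl⟩ := h.surj g
  obtain ⟨r1, r2⟩ := p3 _ (k8 w hw)
  have := (h.prod_sq q1 _ r2 (fun y hy => q2 y (r1 _ hy)) (g⁻¹ * x * g) (by
    rw [map_mul, map_mul, map_inv, e1, List.map_map]
    exact congrArg List.prod (List.map_congr_left fun l _ => (evL_singleton evQ l).symm))).1
  rw [one_pow] at this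
  have h2 := sq_cj this g⁻¹
  rwa [show g⁻¹⁻¹ * (g⁻¹ * x * g) * g⁻¹ = x by group] at h2

/-- Each edge adds a new letter. -/
def treeOK : List (ℕ × ℕ) → Bool
  | [] => true
  | e :: T => !Nat.beq e.1 e.2 && (T.all fun f => !Nat.beq f.1 e.2 && !Nat.beq f.2 e.2) && treeOK T

theorem DC.tree (h : DC π d) : ∀ T : List (ℕ × ℕ), treeOK T = true →
    (∀ e ∈ T, (evQ e.1 * evQ e.2) ^ 3 = 1) →
      ∃ xs : ℕ → C, (∀ l, π (xs l) = evQ l) ∧ ∀ e ∈ T, (xs e.1 * xs e.2) ^ 3 = 1 := by
  intro T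
  induction T with
  | nil => exact fun _ _ => ⟨fun l => (h.surj (evQ l)).choose, fun l => (h.surj _).choose_spec, by simp⟩
  | cons e T ih =>
    intro h1 h2
    simp only [treeOK, Bool.and_eq_true, List.all_eq_true, nbeq_iff] at h1
    obtain ⟨xs, a, b⟩ := ih h1.2 fun f hf => h2 f (by simp [hf])
    obtain ⟨y, y1, y2⟩ := h.lift3 (xs e.1) (q := evQ e.2) (by rw [a]; exact h2 e (by simp))
    refine ⟨Function.update xs e.2 y, fun l => ?_, List.forall_mem_cons.mpr ⟨?_, fun f hf => ?_⟩⟩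
    · by_cases hl : l = e.2
      · rw [hl, Function.update_self, y1]
      · rw [Function.update_of_ne hl, a]
    · rwa [Function.update_self, Function.update_of_ne h1.1.1]
    · rw [Function.update_of_ne (h1.1.2 f hf).1, Function.update_of_ne (h1.1.2 f hf).2]
      exact b f hf

/-- The letters in range multiplied by `ε`. -/
def twi (ε : C) (xs : ℕ → C) (m l : ℕ) : C := if 1 ≤ l ∧ l < m then xs l * ε else 1

theorem evL_twi {ε : C} (hε : ∀ x, Commute x ε) (xs : ℕ → C) {m : ℕ} {w : List ℕ}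
    (hw : inR m w = true) : evL (twi ε xs m) w = evL xs w * ε ^ w.length := by
  have hw' := inR_spec hw
  clear hw
  induction w with
  | nil => simp [evL]
  | cons x w ih =>
    rw [evL_cons, evL_cons, ih fun l hl => hw' l (by simp [hl]), twi, if_pos (hw' x (by simp)),
      List.length_cons, pow_succ', mul_assoc, mul_assoc, ← mul_assoc ε, ← (hε _).eq, mul_assoc]

/-- A word that is a square, or the cube of an edge. -/
def easyR (T : List (ℕ × ℕ)) (r : List ℕ) : Bool :=
  r == r.take (r.length / 2) ++ r.take (r.length / 2) ||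
    T.any fun e => r == rp 3 [e.1, e.2] || r == rp 3 [e.2, e.1]

theorem DC.tuple (h : DC π d) (hn : ∀ x, π x * π x = 1 → x * x = 1) (hQ : Good evQ inv) {m : ℕ}
    {R R1 : List (List ℕ)} (hR : Rels evQ R) {T : List (ℕ × ℕ)} {r0 : List ℕ}
    (hk : ((decide (inv < 256 ^ m) && (List.range m).all fun l => invL inv l == l) && treeOK T &&
      (T.all fun e => inR m [e.1, e.2] && (R.elem (rp 3 [e.1, e.2]) || R.elem (rp 3 [e.2, e.1]))) &&
      inR m r0 && r0.length % 2 == 1 && R.elem r0 &&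
      R1.all fun r => r == r0 || (R.elem r && easyR T r)) = true) :
    ∃ xs : ℕ → C, Good xs inv ∧ (∀ l, π (xs l) = evQ l) ∧ Rels xs R1 := by
  rw [Bool.and_eq_true, Bool.and_eq_true, Bool.and_eq_true, Bool.and_eq_true, Bool.and_eq_true,
    Bool.and_eq_true] at hk
  obtain ⟨⟨⟨⟨⟨⟨k1, k2⟩, k3⟩, k4⟩, k5⟩, k6⟩, k7⟩ := hk
  have hsq := hQ.mul_self k1
  simp only [Bool.and_eq_true, decide_eq_true_eq, List.all_eq_true, List.mem_range, beq_iff_eq,
    Bool.or_eq_true] at k1 k3 k5 k7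
  have sw : ∀ {H : Type v} [Group H] (a b : H), (a * b) ^ 3 = 1 → (b * a) ^ 3 = 1 := fun a b e => by
    rw [show b * a = a⁻¹ * (a * b) * a⁻¹⁻¹ by group, conj_pow, e]; group
  have sw' : ∀ a b : Q, (a * b) ^ 3 = 1 → (b * a) ^ 3 = 1 := fun a b e => by
    rw [show b * a = a⁻¹ * (a * b) * a⁻¹⁻¹ by group, conj_pow, e]; group
  have r3 : ∀ {H : Type v} [Group H] (f : ℕ → H) (a b : ℕ), evL f (rp 3 [a, b]) = (f a * f b) ^ 3 :=
    fun f a b => by rw [evL_rp, evL_cons, evL_singleton]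
  obtain ⟨xs, a, b⟩ := h.tree (evQ := evQ) T k2 fun e he => by
    rcases (k3 e he).2 with e1 | e1
    · have := hR _ (List.mem_of_elem_eq_true e1)
      rwa [evL_rp, evL_cons, evL_singleton] at this
    · have := hR _ (List.mem_of_elem_eq_true e1)
      rw [evL_rp, evL_cons, evL_singleton] at this
      exact sw' _ _ this
  have pe : ∀ (ys : ℕ → C), (∀ l, π (ys l) = evQ l) → ∀ w, π (evL ys w) = evL evQ w :=
    fun ys hy w => by rw [map_evL, funext hy]
  obtain ⟨ε, e1, e2, e3, e4⟩ : ∃ ε : C, (∀ x, Commute x ε) ∧ ε * ε = 1 ∧ π ε = 1 ∧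
      evL xs r0 * ε = 1 := by
    rcases h.ker (evL xs r0) (by rw [pe xs a]; exact hR _ (List.mem_of_elem_eq_true k6)) with e | e
    · exact ⟨1, Commute.one_right, one_mul 1, map_one π, by rw [e, one_mul]⟩
    · exact ⟨d, h.cen, h.sq, h.map, by rw [e, h.sq]⟩
  have c1 : ∀ l, π (twi ε xs m l) = evQ l := fun l => by
    unfold twi
    split_ifs with hl
    · rw [map_mul, e3, mul_one, a]
    · rw [map_one]
      by_cases h0 : l = 0
      · rw [h0, hQ.zero]
      · exact (hQ.eq_one k1.1 (by omega)).symm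
  have c2 : ∀ l, twi ε xs m l * twi ε xs m l = 1 := fun l => hn _ (by rw [c1, hsq])
  have c3 : ∀ e ∈ T, (twi ε xs m e.1 * twi ε xs m e.2) ^ 3 = 1 := fun e he => by
    have := evL_twi e1 xs (k3 e he).1
    rw [evL_cons, evL_singleton, evL_cons, evL_singleton] at this
    rw [this, List.length_cons, List.length_singleton, pow_two, e2, mul_one, b e he]
  refine ⟨twi ε xs m, good_of_rels (m := m) (if_neg (by omega)) (fun l hl => if_neg (by omega)) k1.1
    fun r hr => ?_, c1, fun r hr => ?_⟩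
  · obtain ⟨l, hl, rfl⟩ := List.mem_map.mp hr
    rw [k1.2 l (List.mem_range.mp hl), evL_cons, evL_singleton, c2]
  rcases k7 r hr with rfl | ⟨f1, f2⟩
  · obtain ⟨k, hk⟩ := Nat.odd_iff.mpr k5
    rw [evL_twi e1 xs k4, hk, pow_succ, pow_mul, pow_two, e2, one_pow, one_mul, e4]
  have f3 := hR _ (List.mem_of_elem_eq_true f1)
  simp only [easyR, Bool.or_eq_true, beq_iff_eq, List.any_eq_true] at f2
  rcases f2 with f2 | ⟨e, he, f2 | f2⟩
  · rw [f2, evL_append] at f3 ⊢
    exact hn _ (by rwa [pe _ c1])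
  · rw [f2, r3, c3 e he]
  · rw [f2, r3, sw _ _ (c3 e he)]

theorem DC.not_split (h : DC π d) (hp : commutator C = ⊤) (hd : d ≠ 1) (hQ : Good evQ inv)
    {X : List (List ℕ)} (hX : gen evQ X = ⊤) (ψ : Q →* C) (hψ : ∀ l, π (ψ (evQ l)) = evQ l) :
    False := by
  have a : ∀ q, π (ψ q) = q := fun q => by
    obtain ⟨w, rfl⟩ := exists_word hQ (hX ▸ Subgroup.mem_top q)
    rw [map_evL, map_evL, funext hψ]
  have b : commutator C ≤ ψ.range := by
    rw [commutator_def, Subgroup.commutator_le]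
    intro x _ y _
    exact ⟨⁅π x, π y⁆, by rw [map_commutatorElement]; exact h.comm_eq (a _) (a _)⟩
  obtain ⟨q, e⟩ := b (hp ▸ Subgroup.mem_top d)
  apply hd
  rw [← e, ← a q, e, h.map, map_one]

theorem DC.sur (h : DC π d) {xs : ℕ → C} (hs : ∀ q, ∃ w, evL (fun l => π (xs l)) w = q) (x : C) :
    ∃ w, evL xs w = x ∨ evL xs w * d = x := by
  obtain ⟨w, e⟩ := hs (π x)
  rw [← map_evL] at e
  exact ⟨w, (h.eq e.symm).imp Eq.symm Eq.symm⟩

/-- An element whose image is a product of involutions commuting with the image of `x`. -/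
theorem DC.comm_of_prod (h : DC π d) (hn : ∀ x, π x * π x = 1 → x * x = 1) {x : C}
    (hx : π x * π x = 1) : ∀ us : List Q, (∀ u ∈ us, u * u = 1 ∧ π x * u * (π x * u) = 1) →
      ∀ g, π g = us.prod → Commute x g := by
  intro us
  induction us with
  | nil =>
    intro _ g e
    rcases h.ker g e with rfl | rfl
    · exact Commute.one_right x
    · exact h.cen x
  | cons u us ih =>
    intro hu g e
    obtain ⟨y, rfl⟩ := h.surj u
    obtain ⟨a, b⟩ := hu _ List.mem_cons_self
    have c := ih (fun v hv => hu v (by simp [hv])) (y⁻¹ * g) (by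
      rw [map_mul, map_inv, e, List.prod_cons, inv_mul_cancel_left])
    rw [show g = y * (y⁻¹ * g) by group]
    refine Commute.mul_right ?_ c
    rw [commute_iff_sq (hn x hx) (hn y a), ← mul_assoc]
    exact hn _ (by rwa [map_mul])

end

variable {G : Type v} [Group G] {Γ : Type u} [Group Γ]

theorem exists_dc [Finite G] {d : G} (hd : orderOf d = 2) {Q : Type} [Group Q]
    [((Subgroup.zpowers d).subgroupOf (Subgroup.centralizer ({d} : Set G))).Normal]
    (e : (Subgroup.centralizer ({d} : Set G)) ⧸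
      (Subgroup.zpowers d).subgroupOf (Subgroup.centralizer ({d} : Set G)) ≃* Q) :
    ∃ (h : d ∈ Subgroup.centralizer ({d} : Set G)) (π : Subgroup.centralizer ({d} : Set G) →* Q),
      DC π ⟨d, h⟩ ∧ d ≠ 1 := by
  classical
  have h : d ∈ Subgroup.centralizer ({d} : Set G) := Subgroup.mem_centralizer_singleton_iff.mpr rfl
  have h2 : d * d = 1 := by rw [← pow_two, ← hd, pow_orderOf_eq_one]
  refine ⟨h, e.toMonoidHom.comp (QuotientGroup.mk' _),
    ⟨e.surjective.comp (QuotientGroup.mk'_surjective _), Subtype.ext h2,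
      fun x => Subtype.ext (Subgroup.mem_centralizer_singleton_iff.mp x.2), fun x hx => ?_, ?_⟩,
    fun e1 => by rw [e1, orderOf_one] at hd; omega⟩
  · have := (QuotientGroup.eq_one_iff _).mp ((MulEquiv.map_eq_one_iff e).mp hx)
    rw [Subgroup.mem_subgroupOf, mem_zpowers_iff_mem_range_orderOf, hd] at this
    obtain ⟨k, hk, e1⟩ := Finset.mem_image.mp this
    rw [Finset.mem_range] at hk
    obtain rfl | rfl : k = 0 ∨ k = 1 := by omega
    · exact Or.inl (Subtype.ext (by rw [← e1, pow_zero]; rfl))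
    · exact Or.inr (Subtype.ext (by rw [← e1, pow_one]))
  · refine (MulEquiv.map_eq_one_iff e).mpr ((QuotientGroup.eq_one_iff _).mpr ?_)
    rw [Subgroup.mem_subgroupOf]
    exact Subgroup.mem_zpowers d

/-! ### Local agreement of two tuples -/

def Loc (τ : Γ) (d : G) (ev : ℕ → Γ) (X : ℕ → G) (A : List ℕ) : Prop :=
  ∀ w, (∀ l ∈ w, l ∈ A) →
    (evL ev w = 1 ↔ evL X w = 1) ∧ (IsConj τ (evL ev w) ↔ IsConj d (evL X w))

def Locs (τ : Γ) (d : G) (ev : ℕ → Γ) (X : ℕ → G) (As : List (List ℕ)) : Prop :=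
  ∀ A ∈ As, Loc τ d ev X A

def inA (As : List (List ℕ)) (w : List ℕ) : Bool := As.any fun A => w.all fun l => A.elem l

variable {τ : Γ} {d : G}

theorem Locs.spec {ev : ℕ → Γ} {X : ℕ → G} {As : List (List ℕ)} (h : Locs τ d ev X As) {w : List ℕ}
    (hw : inA As w = true) :
    (evL ev w = 1 ↔ evL X w = 1) ∧ (IsConj τ (evL ev w) ↔ IsConj d (evL X w)) := by
  obtain ⟨A, hA, e⟩ := List.any_eq_true.mp hw
  exact h A hA w fun l hl => List.mem_of_elem_eq_true (List.all_eq_true.mp e l hl)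

theorem Emb.loc {y' : Γ} {y : G} {F : Γ → G} (h : Emb τ d y' y F) {ev : ℕ → Γ} {X : ℕ → G}
    {A : List ℕ} (hA : ∀ l ∈ A, Commute (ev l) y' ∧ F (ev l) = X l) : Loc τ d ev X A := by
  intro w hw
  obtain ⟨a, b⟩ := h.evL (xs := ev) (w := w) fun l hl => (hA l (hw l hl)).1
  rw [evL_congr fun l hl => (hA l (hw l hl)).2] at b
  rw [← b]
  exact ⟨⟨fun e => by rw [e, h.one], h.inj _ a⟩, h.conj _ a⟩

variable {φ : Γ →* Equiv.Perm ℕ} {ev : ℕ → Γ} {img : ℕ → ℕ → ℕ} {n m inv : ℕ} {bs tw : List ℕ}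

theorem Locs.rels {Sg : List (List ℕ)} {X : ℕ → G} {As : List (List ℕ)}
    (h : Locs τ d (evS ev Sg) X As) (ho : Oracle ev img m bs) {R : List (List ℕ)}
    (hc : (R.all fun r => inA As r && fixB img m bs (subst Sg r)) = true) : Rels X R := by
  intro r hr
  have := List.all_eq_true.mp hc r hr
  rw [Bool.and_eq_true] at this
  exact (h.spec this.1).1.mp (by rw [evL_subst]; exact ho _ this.2)

noncomputable def movB (img : ℕ → ℕ → ℕ) (n m : ℕ) (bs w : List ℕ) : Bool :=
  bs.any fun p => inR m w && Nat.blt p n && !Nat.beq (trF img w p) p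

theorem IsAct.mov (h : IsAct φ ev img n m) {bs w : List ℕ} (hc : movB img n m bs w = true) :
    evL ev w ≠ 1 := by
  obtain ⟨p, _, e⟩ := List.any_eq_true.mp hc
  exact h.ne_one e

noncomputable def extChk (img : ℕ → ℕ → ℕ) (n m : ℕ) (bs : List ℕ) (Sg As σ : List (List ℕ))
    (S : List Std) (k : ℕ) (R N : List (List ℕ)) (l0 : ℕ) (A : List ℕ) : Bool :=
  Nat.blt 0 k && Nat.ble k S.length && sW S == σ.map (subst Sg) &&
  ((List.range k).all fun j => inA As (σ.getD j []) && (j == 0 || R.elem [0, j, 0, j])) &&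
  ((R ++ N).all fun w => w.all fun l => Nat.blt l k) &&
  (R.all fun r => inA As (subst σ r) && fixB img m bs (subst Sg (subst σ r))) &&
  (N.all fun r => inA As (subst σ r) && movB img n m bs (subst Sg (subst σ r))) &&
  (As.all fun B => !B.elem l0) &&
  (A.all fun l => l == l0 || (List.range k).any fun j => σ.getD j [] == [l]) &&
  fixB img m [(S.getD 0 (0, [], [])).1] (Sg.getD l0 [])

theorem Locs.extend (T : TM φ ev img n m inv bs tw) {F0 : Γ → G}
    (hF : Emb (evL ev tw) d (evL ev tw) d F0) {Sg As σ : List (List ℕ)} {X : ℕ → G}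
    (hL : Locs (evL ev tw) d (evS ev Sg) X As) {S : List Std} {k : ℕ} {R N : List (List ℕ)}
    (hS : S.all (stdChk img m inv bs tw) = true) (hr : Rig ev tw S k R N k) {l0 : ℕ} {A : List ℕ}
    (hc : extChk img n m bs Sg As σ S k R N l0 A = true) :
    ∃ X' : ℕ → G, (∀ l, l ≠ l0 → X' l = X l) ∧ Locs (evL ev tw) d (evS ev Sg) X' (A :: As) := by
  unfold extChk at hc
  simp only [Bool.and_eq_true] at hc
  obtain ⟨⟨⟨⟨⟨⟨⟨⟨⟨c1, c2⟩, c3⟩, c4⟩, c5⟩, c6⟩, c7⟩, c8⟩, c9⟩, c10⟩ := hc
  simp only [List.all_eq_true, Bool.and_eq_true, Nat.blt_eq, Nat.ble_eq, beq_iff_eq, List.mem_range,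
    Bool.or_eq_true, List.any_eq_true, Bool.not_eq_true'] at c1 c2 c3 c4 c6 c7 c8 c9
  have hd : d * d = 1 := by
    rw [← hF.base, ← hF.mul _ _ (Commute.refl _) (Commute.refl _), T.sq, hF.one]
  have s1 : ∀ j, evS ev (sW S) j = evL (evS ev Sg) (σ.getD j []) := fun j => by
    rw [c3, evL_subst, evS]
    congr 1
    simp only [List.getD_eq_getElem?_getD, List.getElem?_map]
    cases σ[j]? <;> rfl
  have s2 : ∀ j < k, At φ (evL ev tw) (evS ev (sW S) j) (S.getD j (0, [], [])).1 := fun j hj => by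
    rw [evS_sW (by omega), List.getD_eq_getElem _ _ (by omega)]
    exact (T.std (List.all_eq_true.mp hS _ (List.getElem_mem _))).2
  have hx : Tup d k R N (evS X σ) := by
    refine ⟨fun j hj => (hL.spec (c4 j hj).1).2.mp (s1 j ▸ (s2 j hj).isConj), fun r hr => ?_,
      fun r hr e => ?_⟩
    · rw [evL_subst]
      exact (hL.spec (c6 r hr).1).1.mp (by rw [evL_subst]; exact T.ora _ (c6 r hr).2)
    · rw [evL_subst] at e
      have := (hL.spec (c7 r hr).1).1.mpr e
      rw [evL_subst] at this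
      exact T.act.mov (c7 r hr).2 this
  obtain ⟨F1, h1⟩ := hF.exists (s2 0 c1).isConj (hx.cj 0 c1)
  obtain ⟨ys, y1, y2, y3⟩ := h1.pull hx rfl (fun j hj => by
    rcases (c4 j hj).2 with e | e
    · rw [e]
    · refine Commute.symm ?_
      rw [commute_iff_sq (sq_of_isConj hd (hx.cj 0 c1)) (sq_of_isConj hd (hx.cj j hj))]
      simpa [evL] using hx.rel _ (List.mem_of_elem_eq_true e)) c1 c5
  obtain ⟨g, hg⟩ := hr ys y1
  have g0 : Commute g (evS ev (sW S) 0) := commute_of_cj (by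
    have := hg 0 c1
    rwa [y2] at this)
  obtain ⟨F2, h2, h3⟩ := h1.norm g0
  refine ⟨Function.update X l0 (F2 (evS ev Sg l0)), fun l hl => Function.update_of_ne hl _ _,
    List.forall_mem_cons.mpr ⟨h2.loc fun l hl => ?_, fun B hB w hw => ?_⟩⟩
  · by_cases e : l = l0
    · rw [e, Function.update_self]
      unfold fixB at c10
      simp only [Bool.and_eq_true, List.all_cons, List.all_nil, Nat.beq_eq, and_true] at c10
      exact ⟨(T.commW (s2 0 c1) c10.1).mpr c10.2, rfl⟩
    · obtain ⟨j, hj, e1⟩ := (c9 l hl).resolve_left e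
      have e2 : evS ev Sg l = g⁻¹ * ys j * g := by rw [hg j hj, s1, e1, evL_singleton]
      rw [Function.update_of_ne e, e2, h3, (y3 j hj).2]
      refine ⟨?_, by rw [evS, e1, evL_singleton]⟩
      have := commute_cj (y3 j hj).1 g
      rwa [cj_of_commute g0] at this
  · rw [evL_congr (ev := Function.update X l0 _) (ev' := X) fun l hl => Function.update_of_ne
      (fun e => by
        have := c8 B hB
        rw [← e, List.elem_eq_true_of_mem (hw l hl)] at this
        exact absurd this (by decide)) _ _]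
    exact hL B hB w hw

theorem finish [Finite G] [IsSimpleGroup Γ] {e f : Γ} (Q : FF τ e f) {F : Γ → G} (hF : Emb0 τ d F)
    (hn : ∀ y, y * y ≠ d) (Φ : Γ →* G) {ev' : ℕ → Γ} {A : List ℕ}
    (hA : ∀ l ∈ A, Commute (ev' l) τ ∧ Φ (ev' l) = F (ev' l))
    (hC : ∀ a, Commute a τ → ∃ w, (∀ l ∈ w, l ∈ A) ∧ evL ev' w = a) : Nonempty (G ≃* Γ) := by
  have a : ∀ x, Commute x τ → Φ x = F x := fun x hx => by
    obtain ⟨w, hw, rfl⟩ := hC x hx
    rw [map_evL, (hF.evL fun l hl => (hA l (hw l hl)).1).2]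
    exact evL_congr fun l hl => (hA l (hw l hl)).2
  have b : Φ τ = d := by rw [a τ (Commute.refl τ), hF.base]
  have c : Function.Injective Φ := injective_of_simple Φ (x := τ) fun e1 => hn 1 (by
    rw [← b, e1, one_mul])
  refine ⟨(MulEquiv.ofBijective Φ ⟨c, fischer_top Q Φ c (fun y hy => ?_) (b ▸ hn)⟩).symm⟩
  obtain ⟨x, hx, rfl⟩ := hF.surj y (b ▸ hy)
  exact ⟨x, a x hx⟩

/-! ### Counting fixed points -/

noncomputable def cntR (f : ℕ → Bool) (lo k : ℕ) : ℕ :=
  @Nat.rec (fun _ => ℕ) 0 (fun i acc => @Bool.rec (fun _ => ℕ) acc (Nat.succ acc) (f (Nat.add lo i))) k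

theorem cntR_eq (f : ℕ → Bool) (lo k : ℕ) :
    ((Finset.range (lo + k)).filter fun i => f i = true).card =
      ((Finset.range lo).filter fun i => f i = true).card + cntR f lo k := by
  induction k with
  | zero => rfl
  | succ k ih =>
    have : cntR f lo (k + 1) = @Bool.rec (fun _ => ℕ) (cntR f lo k) (cntR f lo k + 1) (f (lo + k)) :=
      rfl
    rw [this, ← add_assoc, Finset.range_add_one, Finset.filter_insert]
    cases h : f (lo + k)
    · simpa using ih
    · rw [if_pos rfl, Finset.card_insert_of_notMem (by simp), ih]; rfl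

noncomputable def cntB (f : ℕ → Bool) (k : ℕ) : ℕ :=
  @Nat.rec (fun _ => ℕ) 0 (fun b acc => Nat.add (cntR f (Nat.mul b 256) 256) acc) k

theorem cntB_eq (f : ℕ → Bool) (k : ℕ) :
    cntB f k = ((Finset.range (k * 256)).filter fun i => f i = true).card := by
  induction k with
  | zero => simp [cntB]
  | succ k ih =>
    rw [add_mul, one_mul, cntR_eq, ← ih]
    exact add_comm _ _

noncomputable def nfix (img : ℕ → ℕ → ℕ) (n : ℕ) (w : List ℕ) : ℕ :=
  cntB (fun p => Nat.blt p n && Nat.beq (trF img w p) p) (n / 256 + 1)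

theorem nfix_eq (ha : IsAct φ ev img n m) {w : List ℕ} (hw : inR m w = true) :
    nfix img n w = ((Finset.range n).filter fun p => (φ (evL ev w))⁻¹ p = p).card := by
  rw [nfix, cntB_eq]
  congr 1
  ext p
  simp only [Finset.mem_filter, Finset.mem_range, Bool.and_eq_true, Nat.blt_eq, Nat.beq_eq]
  constructor
  · rintro ⟨_, a, b⟩
    exact ⟨a, by rw [(ha.trF hw a).1, b]⟩
  · rintro ⟨a, b⟩
    exact ⟨by omega, a, by rw [← (ha.trF hw a).1, b]⟩

theorem not_isConj_of_nfix (ha : IsAct φ ev img n m) {X : List (List ℕ)} (hX : gen ev X = ⊤)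
    {u w : List ℕ} {a b : ℕ} (hu : nfix img n u = a) (hw : nfix img n w = b)
    (hc : (X.all (inR m) && inR m u && inR m w && !Nat.beq a b) = true) :
    ¬ IsConj (evL ev u) (evL ev w) := by
  simp only [Bool.and_eq_true, nbeq_iff] at hc
  obtain ⟨⟨⟨c1, c2⟩, c3⟩, c4⟩ := hc
  have hp : ∀ g p, p < n → (φ g)⁻¹ p < n := fun g p hp =>
    gen_preserves (φ := φ) (ev := ev) (S := Set.Iio n) (Set.finite_Iio n) (Ws := X)
      (fun w hw p hp => by
        have := ha.trF (List.all_eq_true.mp c1 w hw) hp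
        rw [this.1]; exact this.2) g (hX ▸ Subgroup.mem_top g) p hp
  have key : ∀ x g : Γ, ((Finset.range n).filter fun p => (φ x)⁻¹ p = p).card ≤
      ((Finset.range n).filter fun p => (φ (g⁻¹ * x * g))⁻¹ p = p).card := fun x g => by
    refine Finset.card_le_card_of_injOn (fun p => (φ g)⁻¹ p) (fun p hp' => ?_)
      fun p _ q _ e => (φ g)⁻¹.injective e
    simp only [Finset.coe_filter, Finset.mem_range, Set.mem_ofPred_eq] at hp' ⊢
    refine ⟨hp g p hp'.1, ?_⟩
    rw [map_mul, map_mul, map_inv, mul_inv_rev, mul_inv_rev, inv_inv, ← Equiv.Perm.mul_apply,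
      mul_assoc, mul_assoc, mul_inv_cancel, mul_one, Equiv.Perm.mul_apply, hp'.2]
  intro h
  obtain ⟨g, e⟩ := IsConj.exists_cj h
  apply c4
  rw [← hu, ← hw, nfix_eq ha c2, nfix_eq ha c3]
  refine le_antisymm (e ▸ key _ g) ?_
  have := key (evL ev w) g⁻¹
  rwa [← e, show g⁻¹⁻¹ * (g⁻¹ * evL ev u * g) * g⁻¹ = evL ev u by group, e] at this

end Cfsg.H6
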