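import Cfsg.Agent.H6.Fis5

/-! Checks in the model. -/

set_option autoImplicit false

namespace Cfsg.H6

universe u v

variable {G : Type v} [Group G] {Γ : Type u} [Group Γ]

theorem emb_pattern {Q : Type} [Group Q] [IsSimpleGroup Q] {evQ : ℕ → Q} {inv : ℕ}
    {R : List (List ℕ)} (hl : Lift.{max u v} evQ inv R) {ev : ℕ → Γ} {xs : ℕ → G}
    (hev : Good ev inv) (hx : Good xs inv) {τ : Γ} {d : G} {z : List ℕ} (z1 : evL ev z = τ)
    (z2 : evL xs z = d) (hτ : τ * τ = 1) (hd : d * d = 1) (n1 : τ ≠ 1) (n2 : d ≠ 1)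
    (c1 : ∀ l, Commute (ev l) τ) (c2 : ∀ l, Commute (xs l) d)
    (s1 : ∀ a, Commute a τ → ∃ w, evL ev w = a ∨ evL ev w * τ = a)
    (s2 : ∀ a, Commute a d → ∃ w, evL xs w = a ∨ evL xs w * d = a)
    (hR : ∀ r ∈ R, (evL ev r = 1 ∧ evL xs r = 1) ∨ (evL ev r = τ ∧ evL xs r = d)) {i j : ℕ}
    (m1 : ¬ Commute (ev i) (ev j)) (m2 : ¬ Commute (xs i) (xs j)) :
    ∃ F, Emb0 τ d F ∧ ∀ w, F (evL ev w) = evL xs w := by
  subst z1 z2
  refine emb0_of_words hev hx z c1 (fun a ha => ?_) (fun a ha => ?_) fun w =>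
    ⟨transfer2 hl hev hx hτ hd (fun e => absurd e n1) c1 c2 hR m1,
      transfer2 hl hx hev hd hτ (fun e => absurd e n2) c2 c1
        (fun r hr => (hR r hr).imp And.symm And.symm) m2⟩
  · obtain ⟨w, e | e⟩ := s1 a ha
    · exact ⟨w, e⟩
    · exact ⟨w ++ z, by rw [evL_append, e]⟩
  · obtain ⟨w, e | e⟩ := s2 a ha
    · exact ⟨w, e⟩
    · exact ⟨w ++ z, by rw [evL_append, e]⟩

variable {φ : Γ →* Equiv.Perm ℕ} {ev : ℕ → Γ} {img : ℕ → ℕ → ℕ} {n m inv : ℕ} {bs tw : List ℕ}

noncomputable def eqB (img : ℕ → ℕ → ℕ) (m inv : ℕ) (bs u w : List ℕ) : Bool :=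
  fixB img m bs (u ++ invW inv w)

theorem TM.eq (T : TM φ ev img n m inv bs tw) {u w : List ℕ} (h : eqB img m inv bs u w = true) :
    evL ev u = evL ev w := by
  have := T.ora _ h
  rwa [evL_append, evL_invW T.good, mul_inv_eq_one] at this

theorem TM.comm0 (T : TM φ ev img n m inv bs tw) {w : List ℕ} (h : fixB img m [0] w = true) :
    Commute (evL ev w) (evL ev tw) := by
  simp only [fixB, Bool.and_eq_true, List.all_cons, List.all_nil, Nat.beq_eq, and_true] at h
  exact (T.commW TM.at0 h.1).mpr h.2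

theorem TM.commS (T : TM φ ev img n m inv bs tw) {σ : List (List ℕ)}
    (h : σ.all (fixB img m [0]) = true) (l : ℕ) : Commute (evS ev σ l) (evL ev tw) := by
  unfold evS
  by_cases hl : l < σ.length
  · rw [List.getD_eq_getElem _ _ hl]
    exact T.comm0 (List.all_eq_true.mp h _ (List.getElem_mem hl))
  · rw [List.getD_eq_default _ _ (by omega)]
    exact Commute.one_left _

theorem TM.not_comm (T : TM φ ev img n m inv bs tw) {u w : List ℕ}
    (h : movB img n m bs (u ++ w ++ invW inv (w ++ u)) = true) : ¬ Commute (evL ev u) (evL ev w) := by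
  intro c
  apply T.act.mov h
  rw [evL_append, evL_invW T.good, evL_append, evL_append, c.eq, mul_inv_cancel]

/-- The centraliser consists of the words in the letters `A`. -/
theorem TM.words (T : TM φ ev img n m inv bs tw) {Ws σ V : List (List ℕ)} {I : List Ivl} {A : List ℕ}
    (hp : Prim φ ev (gen ev Ws) n I)
    (h : ((A.all fun l => fixB img m bs (σ.getD l [] ++ σ.getD l [])) &&
      Ws.all fun u => V.any fun w => (w.all fun l => A.elem l) && eqB img m inv bs (subst σ w) u) = true)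
    (a : Γ) (ha : Commute a (evL ev tw)) : ∃ w, (∀ l ∈ w, l ∈ A) ∧ evL (evS ev σ) w = a := by
  simp only [Bool.and_eq_true, List.all_eq_true, List.any_eq_true] at h
  refine exists_word_in (fun l hl => ?_) rfl (fun u hu => ?_) (ev' := ev) (X := Ws) ?_
  · rw [evS, ← evL_append]; exact T.ora _ (h.1 l hl)
  · obtain ⟨w, _, a, b⟩ := h.2 u hu
    exact ⟨w, fun l hl => List.mem_of_elem_eq_true (a l hl), by rw [evL_subst, T.eq b]⟩
  · rw [hp.stab, mem_fixS']
    simpa using (T.cent a).mpr ha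

theorem TM.triple (T : TM φ ev img n m inv bs tw) {e b : Γ} (h3 : R3 (evL ev tw) e b) {S : List Std}
    {R N : List (List ℕ)} (hr : Rig ev tw S 3 R N 3) (h0 : evS ev (sW S) 0 = evL ev tw)
    (h1 : evS ev (sW S) 1 = e)
    (h : (R.all [[0, 1, 0, 1], [0, 2, 0, 2], [1, 2, 1, 2]].elem && N.all [[0, 1], [0, 2], [1, 2]].elem)
      = true) (t : Γ) (a1 : IsConj (evL ev tw) t) (a2 : Commute t (evL ev tw)) (a3 : Commute t e)
    (a4 : t ≠ evL ev tw) (a5 : t ≠ e) :
    ∃ h, Commute h (evL ev tw) ∧ Commute h e ∧ h⁻¹ * t * h = evS ev (sW S) 2 := by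
  simp only [Bool.and_eq_true, List.all_eq_true] at h
  have s1 := T.sq
  have s2 := T.sq_of h3.ce
  have s3 := T.sq_of a1
  have k : ∀ x y : Γ, y * y = 1 → x * y = 1 → x = y := fun x y a b => by
    rw [eq_inv_of_mul_eq_one_left b, inv_eq_of_mul_eq_one_right a]
  obtain ⟨g, hg⟩ := hr (fun j => [evL ev tw, e, t].getD j 1) ⟨fun j hj => by
      obtain rfl | rfl | rfl : j = 0 ∨ j = 1 ∨ j = 2 := by omega
      exacts [IsConj.refl _, h3.ce, a1], fun r hr => by
      have := List.mem_of_elem_eq_true (h.1 r hr)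
      simp only [List.mem_cons, List.not_mem_nil, or_false] at this
      rcases this with rfl | rfl | rfl
      · simpa [evL] using (commute_iff_sq s1 s2).mp h3.te.symm
      · simpa [evL] using (commute_iff_sq s1 s3).mp a2.symm
      · simpa [evL] using (commute_iff_sq s2 s3).mp a3.symm, fun r hr c => by
      have := List.mem_of_elem_eq_true (h.2 r hr)
      simp only [List.mem_cons, List.not_mem_nil, or_false] at this
      rcases this with rfl | rfl | rfl
      · exact h3.ne (k _ _ s2 (by simpa [evL] using c)).symm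
      · exact a4 (k _ _ s3 (by simpa [evL] using c)).symm
      · exact a5 (k _ _ s3 (by simpa [evL] using c)).symm⟩
  exact ⟨g, commute_of_cj ((hg 0 (by omega)).trans h0), commute_of_cj ((hg 1 (by omega)).trans h1),
    hg 2 (by omega)⟩

theorem TM.cls (T : TM φ ev img n m inv bs tw) {L CW : List (List ℕ)} {ew fw : List ℕ}
    (hc : ∀ x : Γ, x * x = 1 → ∃ w ∈ L, IsConj x (evL ev w))
    (h : (L.all fun w => CW.any fun g => [[], tw, tw ++ ew, tw ++ ew ++ fw].any fun t =>
      eqB img m inv bs (invW inv g ++ t ++ g) w) = true) (x : Γ) (hx : x * x = 1) :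
    x = 1 ∨ IsConj (evL ev tw) x ∨ IsConj (evL ev tw * evL ev ew) x ∨
      IsConj (evL ev tw * evL ev ew * evL ev fw) x := by
  obtain ⟨w, hw, e⟩ := hc x hx
  simp only [List.all_eq_true, List.any_eq_true] at h
  obtain ⟨g, _, t, ht, e1⟩ := h w hw
  have e2 := T.eq e1
  rw [evL_append, evL_append, evL_invW T.good] at e2
  have e3 : IsConj (evL ev t) x := (e2 ▸ isConj_cj _ _ : IsConj (evL ev t) (evL ev w)).trans e.symm
  simp only [List.mem_cons, List.not_mem_nil, or_false] at ht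
  rcases ht with rfl | rfl | rfl | rfl
  · exact Or.inl (isConj_one_right.mp e3)
  · exact Or.inr (Or.inl e3)
  · exact Or.inr (Or.inr (Or.inl (by rwa [evL_append] at e3)))
  · exact Or.inr (Or.inr (Or.inr (by rwa [evL_append, evL_append] at e3)))

noncomputable def rootB (img : ℕ → ℕ → ℕ) (m inv : ℕ) (bs : List ℕ) (Rt : List (List ℕ)) (w : List ℕ) :
    Bool := Rt.any fun y => fixB img m [0] y && eqB img m inv bs (y ++ y) w

theorem TM.root (T : TM φ ev img n m inv bs tw) {Rt : List (List ℕ)} {w : List ℕ}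
    (h : rootB img m inv bs Rt w = true) : ∃ y, Commute y (evL ev tw) ∧ y * y = evL ev w := by
  obtain ⟨y, _, e⟩ := List.any_eq_true.mp h
  rw [Bool.and_eq_true] at e
  exact ⟨_, T.comm0 e.1, by rw [← evL_append, T.eq e.2]⟩

theorem TM.lc (T : TM φ ev img n m inv bs tw) {σ Reps Rt : List (List ℕ)} {ew : List ℕ}
    (hc : ∀ x, Commute x (evL ev tw) → x * x = 1 → ∃ w ∈ Reps, ∃ k, Commute k (evL ev tw) ∧
      (k⁻¹ * evL (evS ev σ) w * k = x ∨ k⁻¹ * (evL (evS ev σ) w * evL ev tw) * k = x))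
    (h : (Reps.all fun w => subst σ w == [] || subst σ w == ew ||
      (rootB img m inv bs Rt (subst σ w) && rootB img m inv bs Rt (subst σ w ++ tw))) = true) :
    LC (evL ev tw) (evL ev ew) := by
  intro x h1 h2
  obtain ⟨w, hw, k, k1, k2⟩ := hc x h1 h2
  have := List.all_eq_true.mp h w hw
  simp only [Bool.or_eq_true, beq_iff_eq, Bool.and_eq_true] at this
  rw [evL_subst] at k2
  have key : ∀ v, rootB img m inv bs Rt v = true → k⁻¹ * evL ev v * k = x →
      ∃ y, Commute y (evL ev tw) ∧ y * y = x := fun v hv e => by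
    obtain ⟨y, y1, y2⟩ := T.root hv
    exact ⟨k⁻¹ * y * k, (k1.inv_left.mul_left y1).mul_left k1, by rw [← e, ← y2]; group⟩
  rcases this with (e | e) | ⟨e, e'⟩
  · rw [e, evL_nil, one_mul, cj_of_commute k1, mul_one, inv_mul_cancel] at k2
    exact k2.elim (fun a => Or.inl a.symm) fun a => Or.inr (Or.inl a.symm)
  · rw [e] at k2
    exact Or.inr (Or.inr (k2.elim (fun a => Or.inl ⟨k, k1, a⟩) fun a => Or.inr (Or.inl ⟨k, k1, a⟩)))
  · rw [← evL_append] at k2
    exact Or.inr (Or.inr (Or.inr (Or.inr (k2.elim (key _ e) (key _ e')))))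

theorem TM.ff (T : TM φ ev img n m inv bs tw) {e f t : Std} {b : Γ}
    (h3 : R3 (evL ev tw) (evL ev e.2.2) b)
    (hc : ∀ x : Γ, x * x = 1 → x = 1 ∨ IsConj (evL ev tw) x ∨ IsConj (evL ev tw * evL ev e.2.2) x ∨
      IsConj (evL ev tw * evL ev e.2.2 * evL ev f.2.2) x)
    (ht : ∀ t, IsConj (evL ev tw) t → Commute t (evL ev tw) → Commute t (evL ev e.2.2) →
      t ≠ evL ev tw → t ≠ evL ev e.2.2 →
      ∃ h, Commute h (evL ev tw) ∧ Commute h (evL ev e.2.2) ∧ h⁻¹ * t * h = evL ev f.2.2)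
    (h4 : ¬ IsConj (evL ev (e.2.2 ++ f.2.2)) (evL ev (t.2.2 ++ (tw ++ e.2.2 ++ f.2.2))))
    {r1 r2 : List ℕ} {ts : List Std}
    (h : (movB img n m bs tw && eqB img m inv bs (r1 ++ r1) (tw ++ e.2.2) &&
      eqB img m inv bs (r2 ++ r2) (tw ++ e.2.2 ++ f.2.2) && stdChk img m inv bs tw e &&
      stdChk img m inv bs tw f && fixB img m [0, e.1] f.2.2 && ts.length % 2 == 1 &&
      eqB img m inv bs (sW ts).flatten (tw ++ e.2.2) &&
      (ts.all fun s => stdChk img m inv bs tw s && fixB img m [0, e.1] s.2.2 && !Nat.beq s.1 0 &&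
        !Nat.beq s.1 e.1) && stdChk img m inv bs tw t &&
      fixB img m [t.1] (tw ++ e.2.2 ++ f.2.2)) = true) :
    FF (evL ev tw) (evL ev e.2.2) (evL ev f.2.2) := by
  simp only [Bool.and_eq_true, List.all_eq_true, beq_iff_eq, nbeq_iff] at h
  obtain ⟨⟨⟨⟨⟨⟨⟨⟨⟨⟨c1, c2⟩, c3⟩, c4⟩, c5⟩, c6⟩, c7⟩, c8⟩, c9⟩, c10⟩, c11⟩ := h
  have ae := (T.std c4).2
  have two : ∀ w, fixB img m [0, e.1] w = true →
      Commute (evL ev w) (evL ev tw) ∧ Commute (evL ev w) (evL ev e.2.2) := fun w hw => by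
    simp only [fixB, Bool.and_eq_true, List.all_cons, List.all_nil, Nat.beq_eq, and_true] at hw
    exact ⟨(T.commW TM.at0 hw.1).mpr hw.2.1, (T.commW ae hw.1).mpr hw.2.2⟩
  have p4 : ∀ l : List (List ℕ), (l.map (evL ev)).prod = evL ev l.flatten := fun l => by
    induction l with
    | nil => rfl
    | cons u l ih => rw [List.map_cons, List.prod_cons, ih, List.flatten_cons, evL_append]
  refine ⟨T.sq, T.act.mov c1, hc, ⟨evL ev r1, by rw [← evL_append, T.eq c2, evL_append]⟩,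
    ⟨evL ev r2, by rw [← evL_append, T.eq c3, evL_append, evL_append]⟩, h3.ce, (T.std c5).2.isConj,
    h3.te, (two _ c6).1, (two _ c6).2, h3.ne, h3.pair, ht, h3.three,
    ⟨(sW ts).map (evL ev), ?_, by rw [p4, T.eq c8, evL_append], fun u hu => ?_⟩,
    ⟨evL ev t.2.2, (T.std c10).2.isConj, ?_, by simpa only [evL_append] using h4⟩⟩
  · rw [List.length_map, sW, List.length_map]
    exact Nat.odd_iff.mpr c7
  · rw [sW, List.map_map] at hu
    obtain ⟨s, hs, rfl⟩ := List.mem_map.mp hu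
    obtain ⟨⟨⟨a1, a2⟩, a3⟩, a4⟩ := c9 s hs
    have a5 := (T.std a1).2
    exact ⟨a5.isConj, (two _ a2).1, (two _ a2).2, T.ne a5 TM.at0 a3, T.ne a5 ae a4⟩
  · simp only [fixB, Bool.and_eq_true, List.all_cons, List.all_nil, Nat.beq_eq, and_true] at c11
    have := (T.commW (T.std c10).2 c11.1).mpr c11.2
    rw [evL_append, evL_append] at this
    exact this.symm

/-- From the local agreement on all relators to the isomorphism. -/
theorem Locs.finish [Finite G] [IsSimpleGroup Γ] (T : TM φ ev img n m inv bs tw) {e f : Γ}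
    (Q : FF (evL ev tw) e f) {d : G} {F : Γ → G} (hF : Emb0 (evL ev tw) d F) (hn : ∀ y, y * y ≠ d)
    {Sg As s : List (List ℕ)} {X : ℕ → G} (hL : Locs (evL ev tw) d (evS ev Sg) X As) {A : List ℕ}
    (hX : ∀ l ∈ A, X l = F (evS ev Sg l)) (Φ : Γ →* G) (hΦ : ∀ l, Φ (ev l) = evS X s l)
    (hC : ∀ a, Commute a (evL ev tw) → ∃ w, (∀ l ∈ w, l ∈ A) ∧ evL (evS ev Sg) w = a)
    (h : (A.all fun l => fixB img m [0] (Sg.getD l []) && inA As [l, l] &&
      fixB img m bs (subst Sg [l, l]) && inA As (subst s (Sg.getD l []) ++ [l]) &&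
      fixB img m bs (subst Sg (subst s (Sg.getD l []) ++ [l]))) = true) : Nonempty (G ≃* Γ) := by
  refine H6.finish Q hF hn Φ (fun l hl => ?_) hC
  have := List.all_eq_true.mp h l hl
  simp only [Bool.and_eq_true] at this
  obtain ⟨⟨⟨⟨c1, c2⟩, c3⟩, c4⟩, c5⟩ := this
  refine ⟨T.comm0 c1, ?_⟩
  have a := (hL.spec c2).1.mp (by rw [evL_subst]; exact T.ora _ c3)
  have b := (hL.spec c4).1.mp (by rw [evL_subst]; exact T.ora _ c5)
  rw [evL_cons, evL_singleton] at a
  rw [evL_append, evL_singleton, ← evL_subst] at b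
  rw [← hX l hl, evS, map_evL, funext hΦ, eq_inv_of_mul_eq_one_left b, inv_eq_of_mul_eq_one_right a]

theorem Locs.good {τ : Γ} {d : G} {Sg As s : List (List ℕ)} {X : ℕ → G}
    (hL : Locs τ d (evS ev Sg) X As) (ho : Oracle ev img m bs) {inv' : ℕ}
    (h : (s.getD 0 [] == [] && decide (inv' < 256 ^ s.length) &&
      (((List.range s.length).map fun l => [invL inv' l, l]).map (subst s)).all fun r =>
        inA As r && fixB img m bs (subst Sg r)) = true) : Good (evS X s) inv' := by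
  simp only [Bool.and_eq_true, beq_iff_eq, decide_eq_true_eq] at h
  refine good_of_rels (m := s.length) ?_ (fun l hl => ?_) h.1.2 fun r hr => ?_
  · unfold evS; rw [h.1.1]; rfl
  · unfold evS; rw [List.getD_eq_default _ _ hl]; rfl
  · rw [evL_subst]
    exact hL.rels ho h.2 _ (List.mem_map.mpr ⟨r, hr, rfl⟩)

theorem Locs.relsS {τ : Γ} {d : G} {Sg As s R : List (List ℕ)} {X : ℕ → G}
    (hL : Locs τ d (evS ev Sg) X As) (ho : Oracle ev img m bs)
    (h : ((R.map (subst s)).all fun r => inA As r && fixB img m bs (subst Sg r)) = true) :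
    Rels (evS X s) R := fun r hr => by
  rw [evL_subst]
  exact hL.rels ho h _ (List.mem_map.mpr ⟨r, hr, rfl⟩)

theorem Emb.locs (T : TM φ ev img n m inv bs tw) {d : G} {F : Γ → G}
    (hF : Emb (evL ev tw) d (evL ev tw) d F) {Sg : List (List ℕ)} {A : List ℕ}
    (h : (A.all fun l => fixB img m [0] (Sg.getD l [])) = true) :
    Locs (evL ev tw) d (evS ev Sg) (fun l => F (evS ev Sg l)) [A] := by
  intro B hB
  rw [List.mem_singleton.mp hB]
  exact hF.loc fun l hl => ⟨T.comm0 (List.all_eq_true.mp h l hl), rfl⟩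

/-- The tuple in the centraliser seen in the whole group. -/
theorem DC.coe {Q : Type} [Group Q] {d : G} {h : d ∈ Subgroup.centralizer ({d} : Set G)}
    {π : Subgroup.centralizer ({d} : Set G) →* Q} (D : DC π ⟨d, h⟩)
    (hn : ∀ x, π x * π x = 1 → x * x = 1) (hd : d ≠ 1) :
    d * d = 1 ∧ (∀ y, y * y ≠ d) ∧ ∀ xs : ℕ → Subgroup.centralizer ({d} : Set G),
      (∀ q, ∃ w, evL (fun l => π (xs l)) w = q) → (∀ l, Commute (xs l : G) d) ∧
      ∀ a, Commute a d → ∃ w, evL (fun l => (xs l : G)) w = a ∨ evL (fun l => (xs l : G)) w * d = a := by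
  refine ⟨congrArg Subtype.val D.sq, fun y e => hd ?_, fun xs hs => ⟨fun l =>
    Subgroup.mem_centralizer_singleton_iff.mp (xs l).2, fun a ha => ?_⟩⟩
  · have hy : y ∈ Subgroup.centralizer ({d} : Set G) :=
      Subgroup.mem_centralizer_singleton_iff.mpr (by rw [← e, mul_assoc])
    have := hn ⟨y, hy⟩ (by rw [← map_mul, ← D.map]; exact congrArg π (Subtype.ext e))
    rw [← e]
    exact congrArg Subtype.val this
  · obtain ⟨w, e⟩ := D.sur hs ⟨a, Subgroup.mem_centralizer_singleton_iff.mpr ha⟩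
    have k := map_evL (Subgroup.centralizer ({d} : Set G)).subtype xs w
    refine ⟨w, e.imp (fun e1 => ?_) fun e1 => ?_⟩
    · exact k.symm.trans (congrArg Subtype.val e1)
    · exact (congrArg (· * d) k.symm).trans (congrArg Subtype.val e1)

end Cfsg.H6
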