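import Cfsg.Agent.H6.Fis6

/-! Further lemmas for the smallest Fischer group. -/

set_option autoImplicit false

namespace Cfsg.H6

universe u v

variable {G : Type v} [Group G] {Γ : Type u} [Group Γ]

theorem braid {x y : G} (hx : x * x = 1) (hy : y * y = 1) (h : x * (y * (x * (y * (x * y)))) = 1) :
    (x * y)⁻¹ * y * (x * y) = x ∧ (y * x)⁻¹ * x * (y * x) = y := by
  have a := inv_eq_of_mul_eq_one_right hx
  have b := inv_eq_of_mul_eq_one_right hy
  rw [mul_inv_rev, mul_inv_rev, a, b]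
  constructor
  · rw [← a, eq_inv_iff_mul_eq_one, a, ← h, ← mul_left_inj x⁻¹, ← mul_right_inj x]
    rw [show x * (y * x * y * (x * y) * x * x⁻¹) = x * (y * (x * (y * (x * y)))) by group, h]
    group
  · rw [← b, eq_inv_iff_mul_eq_one, b, ← h]; group

theorem DC.comm_of_words {C : Type v} {Q : Type} [Group C] [Group Q] {π : C →* Q} {d : C}
    {evQ : ℕ → Q} {inv : ℕ} (h : DC π d) (hn : ∀ x, π x * π x = 1 → x * x = 1) (hQ : Good evQ inv)
    {chk : List ℕ → Bool} (ho : ∀ w, chk w = true → evL evQ w = 1) {xs : ℕ → C}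
    (hx : ∀ l, π (xs l) = evQ l) {l : ℕ} {g iw : List ℕ} {gs : List (List ℕ)}
    (hc : (chk [l, l] && (gs.all fun u => chk (u ++ u) && chk (l :: u ++ l :: u)) &&
      chk (g ++ invW inv (subst gs iw))) = true) : Commute (xs l) (evL xs g) := by
  simp only [Bool.and_eq_true, List.all_eq_true] at hc
  have a := ho _ hc.1.1
  rw [evL_cons, evL_singleton] at a
  refine h.comm_of_prod hn (by rwa [hx]) (iw.map (evS evQ gs)) (fun u hu => ?_) _ ?_
  · obtain ⟨j, _, rfl⟩ := List.mem_map.mp hu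
    rw [hx, evS]
    by_cases hj : j < gs.length
    · rw [List.getD_eq_getElem _ _ hj]
      obtain ⟨b, c⟩ := hc.1.2 _ (List.getElem_mem hj)
      have b := ho _ b
      have c := ho _ c
      rw [evL_append] at b c
      rw [evL_cons] at c
      exact ⟨b, c⟩
    · rw [List.getD_eq_default _ _ (by omega), evL_nil, mul_one, mul_one]
      exact ⟨rfl, a⟩
  · have := ho _ hc.2
    rw [evL_append, evL_invW hQ, mul_inv_eq_one, ← evL_subst] at this
    rw [map_evL, funext hx, this]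
    rfl

/-- A new tuple of words. -/
theorem retuple {xs : ℕ → G} {d : G} (hd : d * d = 1) {chk : List ℕ → Bool}
    (ho : ∀ w, chk w = true → evL xs w = 1) {Z1 Zd W R : List (List ℕ)} {z : List ℕ} {inv : ℕ}
    (h1 : Rels xs Z1) (h2 : ∀ c ∈ Zd, evL xs c = d)
    (hc : (W.getD 0 [] == [] && decide (inv < 256 ^ W.length) &&
      ((((List.range W.length).map fun l => [invL inv l, l]) ++ R).all fun r =>
        Z1.any fun c => chk (subst W r ++ c)) && Zd.any fun c => chk (subst W z ++ c)) = true) :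
    Good (evS xs W) inv ∧ Rels (evS xs W) R ∧ evL (evS xs W) z = d := by
  simp only [Bool.and_eq_true, List.all_eq_true, List.any_eq_true, beq_iff_eq,
    decide_eq_true_eq] at hc
  obtain ⟨⟨⟨c1, c2⟩, c3⟩, c, c4, c5⟩ := hc
  have k : Rels (evS xs W) (((List.range W.length).map fun l => [invL inv l, l]) ++ R) :=
    fun r hr => by
      obtain ⟨c, a, b⟩ := c3 r hr
      have := ho _ b
      rwa [evL_append, h1 c a, mul_one, ← evL_subst] at this
  refine ⟨good_of_rels (m := W.length) ?_ (fun l hl => ?_) c2 fun r hr => k r (List.mem_append_left _ hr),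
    fun r hr => k r (List.mem_append_right _ hr), ?_⟩
  · unfold evS; rw [c1]; rfl
  · unfold evS; rw [List.getD_eq_default _ _ hl]; rfl
  · have := ho _ c5
    rw [evL_append, h2 c c4, ← evL_subst] at this
    rw [eq_inv_of_mul_eq_one_left this, inv_eq_of_mul_eq_one_right hd]

theorem words_of_simple {Q : Type} [Group Q] [Finite Q] [IsSimpleGroup Q] {evQ ys : ℕ → Q} {inv : ℕ}
    (hQ : Good evQ inv) {X : List (List ℕ)} (hX : gen evQ X = ⊤) (ψ : Q →* Q)
    (hψ : ∀ l, ψ (evQ l) = ys l) {i : ℕ} (hi : ys i ≠ 1) (q : Q) : ∃ w, evL ys w = q := by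
  obtain ⟨p, rfl⟩ := Finite.injective_iff_surjective.mp
    (injective_of_simple ψ (x := evQ i) (by rwa [hψ])) q
  obtain ⟨w, rfl⟩ := exists_word hQ (hX ▸ Subgroup.mem_top p)
  exact ⟨w, by rw [map_evL, funext hψ]⟩

/-- Transfer from a cover with a central four-group. -/
theorem transfer4 {Q : Type} [Group Q] [IsSimpleGroup Q] {evQ : ℕ → Q} {inv : ℕ} {R : List (List ℕ)}
    (hl : Lift.{max u v} evQ inv R) {ev : ℕ → Γ} {xs : ℕ → G}
    (hev : Good ev inv) (hx : Good xs inv) {τ a : Γ} {δ ε : G} (hτ : τ * τ = 1) (ha : a * a = 1)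
    (hδ : δ * δ = 1) (hε : ε * ε = 1) (hc : Commute τ a) (n1 : τ ≠ 1) (n2 : a ≠ 1) (n3 : τ * a ≠ 1)
    (c1 : ∀ l, Commute (ev l) τ) (c2 : ∀ l, Commute (ev l) a) (c3 : ∀ x, Commute x δ)
    (c4 : ∀ x, Commute x ε)
    (hR : ∀ r ∈ R, (evL ev r = 1 ∧ evL xs r = 1) ∨ (evL ev r = τ ∧ evL xs r = δ) ∨
      (evL ev r = a ∧ evL xs r = ε)) {i j : ℕ}
    (hij : ¬ Commute (ev i) (ev j)) {w : List ℕ} (hw : evL ev w = 1) : evL xs w = 1 := by
  have k0 : Commute (τ, δ) (a, ε) := Prod.ext hc (c4 δ)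
  refine transfer hl hev hx (V4 (τ, δ) (a, ε) (Prod.ext hτ hδ) (Prod.ext ha hε) k0)
    ?_ (fun r hr => ?_) ?_ hij hw
  · have k1 : ∀ l, Commute (ev l, xs l) (τ, δ) := fun l => Prod.ext (c1 l) (c3 _)
    have k2 : ∀ l, Commute (ev l, xs l) (a, ε) := fun l => Prod.ext (c2 l) (c4 _)
    have k3 : ∀ y, y = 1 ∨ y = (τ, δ) ∨ y = (a, ε) ∨ y = (τ, δ) * (a, ε) →
        Commute y (τ, δ) ∧ Commute y (a, ε) := by
      rintro _ (rfl | rfl | rfl | rfl)
      · exact ⟨Commute.one_left _, Commute.one_left _⟩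
      · exact ⟨Commute.refl _, k0⟩
      · exact ⟨k0.symm, Commute.refl _⟩
      · exact ⟨(Commute.refl _).mul_left k0.symm, k0.mul_left (Commute.refl _)⟩
    rintro _ (rfl | rfl | rfl | rfl)
    · exact ⟨fun _ => Commute.one_right _, fun _ _ => Commute.one_right _⟩
    · exact ⟨k1, fun y hy => (k3 y hy).1⟩
    · exact ⟨k2, fun y hy => (k3 y hy).2⟩
    · exact ⟨fun l => (k1 l).mul_right (k2 l), fun y hy => (k3 y hy).1.mul_right (k3 y hy).2⟩
  · rcases hR r hr with ⟨a, b⟩ | ⟨a, b⟩ | ⟨a, b⟩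
    · exact Or.inl (Prod.ext a b)
    · exact Or.inr (Or.inl (Prod.ext a b))
    · exact Or.inr (Or.inr (Or.inl (Prod.ext a b)))
  · rintro _ (rfl | rfl | rfl | rfl)
    · exact fun _ => rfl
    · exact fun e => absurd e n1
    · exact fun e => absurd e n2
    · exact fun e => absurd e n3

variable {φ : Γ →* Equiv.Perm ℕ} {ev : ℕ → Γ} {img : ℕ → ℕ → ℕ} {n m inv : ℕ} {bs tw : List ℕ}

theorem Locs.cover [Finite Γ] (T : TM φ ev img n m inv bs tw) {H : Subgroup Γ} {I : List Ivl}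
    (hp : Prim φ ev H n I) {d : G} {Sg As s s' R R' Sub XX : List (List ℕ)} {X : ℕ → G}
    (hL : Locs (evL ev tw) d (evS ev Sg) X As) {inv' : ℕ} (g1 : Good (evS ev Sg) inv')
    (g2 : Good (evS X s) inv') (r1 : Rels (evS ev Sg) R') (r2 : Rels (evS X s) R')
    (hc : ∀ ev' : ℕ → Γ × G, Good ev' inv' → Rels ev' R' → Cover (gen ev' Sub) (gen ev' XX) n)
    (hX : gen (evS ev Sg) XX = ⊤) {A : List ℕ}
    (h : (Sub == A.map (fun l => [l]) && inA As A && (A.all fun l => s.getD l [] == [l] &&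
      fixB img m [0] (Sg.getD l []) && invL inv' l == l) &&
      R.all fun r => (r.all fun l => XX.elem [l]) && fixB img m bs (subst Sg r) &&
        subst s' r == subst s r) = true) : Rels (evS X s') R := by
  simp only [Bool.and_eq_true, List.all_eq_true, beq_iff_eq] at h
  obtain ⟨⟨⟨c1, c2⟩, c3⟩, c4⟩ := h
  intro r hr
  obtain ⟨⟨a1, a2⟩, a3⟩ := c4 r hr
  rw [evL_subst, a3, ← evL_subst]
  have gp := g1.pair g2
  refine transfer_cover (hc _ gp fun r hr => by rw [evL_pair, r1 r hr, r2 r hr]; rfl)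
    (fun z hz => ?_) (H := H) (gen_le fun w hw => ?_) hp.index hX
    (evL_mem_of_letters fun l hl => ?_) (by rw [evL_subst]; exact T.ora _ a2)
  · obtain ⟨w, hw, rfl⟩ := exists_word_in (A := A) (ev := fun l => (evS ev Sg l, evS X s l))
      (fun l hl => by
        have := gp.inv l
        rw [(c3 l hl).2] at this
        exact mul_eq_one_iff_eq_inv.mpr this) rfl (fun u hu => ⟨u, by
          rw [c1] at hu
          obtain ⟨l, hl, rfl⟩ := List.mem_map.mp hu
          simpa using hl, rfl⟩) hz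
    rw [evL_pair]
    intro e
    obtain ⟨B, hB, e1⟩ := List.any_eq_true.mp c2
    have := (hL B hB w fun l hl =>
      List.mem_of_elem_eq_true (List.all_eq_true.mp e1 l (hw l hl))).1.mp e
    show evL (evS X s) w = 1
    rw [← this]
    exact evL_congr fun l hl => by rw [evS, (c3 l (hw l hl)).1.1, evL_singleton]
  · rw [c1] at hw
    obtain ⟨l, hl, rfl⟩ := List.mem_map.mp hw
    rw [evL_singleton, hp.stab, mem_fixS']
    intro b hb
    rw [List.mem_singleton.mp hb]
    exact (T.cent _).mpr (T.comm0 (c3 l hl).1.2)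
  · have := evL_mem_gen (fun l => (evS ev Sg l, evS X s l)) (List.mem_of_elem_eq_true (a1 l hl))
    rwa [evL_singleton] at this

end Cfsg.H6
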