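import Cfsg.Agent.H6.Fis7

/-! Fusion when one further class of involutions consists of non-squares. -/

set_option autoImplicit false

namespace Cfsg.H6

universe u v

variable {G : Type v} [Group G] {Γ : Type u} [Group Γ]

def LC3 (τ e x0 : Γ) : Prop := ∀ x, Commute x τ → x * x = 1 → x = 1 ∨ x = τ ∨
  (∃ h, Commute h τ ∧ h⁻¹ * e * h = x) ∨ (∃ h, Commute h τ ∧ h⁻¹ * x0 * h = x) ∨
  ∃ y, Commute y τ ∧ y * y = x

section
variable {τ e f g x0 : Γ} {d : G} {F : Γ → G}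

theorem Emb0.classes3 (h : Emb0 τ d F) (hL : LC3 τ e x0) (hd : d * d = 1) (hn : ∀ y, y * y ≠ d)
    {x : Γ} (hx : Commute x τ) (hc : IsConj d (F x)) : x = τ ∨ (∃ k, Commute k τ ∧ k⁻¹ * e * k = x) ∨
      ∃ k, Commute k τ ∧ k⁻¹ * x0 * k = x := by
  rcases hL x hx (h.inj _ (hx.mul_left hx) (by rw [h.mul _ _ hx hx]; exact sq_of_isConj hd hc))
    with h1 | h1 | h1 | h1 | ⟨y, h1, h2⟩
  · exact absurd (by rw [one_mul, ← h.one, ← h1]) (not_sq_of_cj hn hc 1)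
  · exact Or.inl h1
  · exact Or.inr (Or.inl h1)
  · exact Or.inr (Or.inr h1)
  · exact absurd (by rw [← h.mul _ _ h1 h1, h2]) (not_sq_of_cj hn hc (F y))

theorem Emb0.not_third {f' : Γ} (h : Emb0 τ d F) (hL : LC3 τ e (e * f * g)) (Q : FF τ e f')
    (hn : ∀ y, y * y ≠ d) (hf : ∃ k, Commute k τ ∧ k⁻¹ * e * k = f)
    (hg : ∃ k, Commute k τ ∧ k⁻¹ * e * k = g) (ef : Commute e f) (eg : Commute e g)
    (fg : Commute f g) (hk : ∃ k, Commute k τ ∧ k⁻¹ * (e * f * g) * k = e * f * g * τ)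
    (hy : ∃ k, Commute k τ ∧ Commute (k⁻¹ * (e * f * g) * k) (e * f * g) ∧
      k⁻¹ * (e * f * g) * k * (e * f * g) ≠ 1 ∧
      ∃ y, Commute y τ ∧ y * y = k⁻¹ * (e * f * g) * k * (e * f * g))
    (r1 : ∃ y, Commute y τ ∧ y * y = f * g) (r2 : ∃ y, Commute y τ ∧ y * y = e * g)
    (r3 : ∃ y, Commute y τ ∧ y * y = e * f) (n1 : f * g ≠ 1) (n2 : e * g ≠ 1) (n3 : e * f ≠ 1) :
    ¬ IsConj d (F (e * f * g)) := by
  intro hc
  have tt := Commute.refl τ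
  have hd : d * d = 1 := by rw [← h.base, ← h.mul _ _ tt tt, Q.sq, h.one]
  obtain ⟨kf, kf1, kf2⟩ := hf
  obtain ⟨kg, kg1, kg2⟩ := hg
  have cc : ∀ {k a : Γ}, Commute k τ → Commute a τ → Commute (k⁻¹ * a * k) τ := fun a b =>
    (a.inv_left.mul_left b).mul_left a
  have tf : Commute f τ := kf2 ▸ cc kf1 Q.te
  have tg : Commute g τ := kg2 ▸ cc kg1 Q.te
  have e2 : e * e = 1 := sq_of_isConj Q.sq Q.ce
  have f2 : f * f = 1 := kf2 ▸ sq_cj e2 kf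
  have g2 : g * g = 1 := kg2 ▸ sq_cj e2 kg
  obtain ⟨x, hx⟩ : ∃ x, x = e * f * g := ⟨_, rfl⟩
  have tx : Commute x τ := hx ▸ (Q.te.mul_left tf).mul_left tg
  have x2 : x * x = 1 := hx ▸ sq_mul (sq_mul e2 f2 ef) g2 (eg.mul_left fg)
  have s1 : e * x = f * g := by rw [hx, mul_assoc e f, ← mul_assoc, e2, one_mul]
  have s2 : f * x = e * g := by rw [hx, ef.eq, mul_assoc f e, ← mul_assoc, f2, one_mul]
  have s3 : g * x = e * f := by rw [hx, (eg.mul_left fg).eq, ← mul_assoc, g2, one_mul]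
  rw [← hx] at hL hc hk hy
  obtain ⟨ρ, hρ⟩ := IsConj.exists_cj hc.symm
  obtain ⟨k0, k1, k2⟩ := hk
  have mulc : ∀ a b : G, ρ⁻¹ * (a * b) * ρ = (ρ⁻¹ * a * ρ) * (ρ⁻¹ * b * ρ) := fun a b => by group
  have key : ∀ y, Commute y τ → Commute y x → IsConj d (F y) → y * x ≠ 1 →
      (∃ w, Commute w τ ∧ w * w = y * x) →
      ∃ k, Commute k τ ∧ F (k⁻¹ * e * k) = ρ⁻¹ * F y * ρ := by
    rintro y a1 a2 a3 a4 ⟨w, a5, a6⟩
    obtain ⟨y', b1, b2⟩ := h.surj (ρ⁻¹ * F y * ρ) (hρ ▸ commute_cj ((h.comm a1 tx).mpr a2) ρ)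
    rcases h.classes3 hL hd hn b1 (b2 ▸ a3.trans (isConj_cj _ ρ)) with e1 | ⟨k, b3, e1⟩ | ⟨k, b3, e1⟩
    · rw [e1, h.base, ← hρ] at b2
      exact absurd (by rw [← h.eq tx a1 (mul_left_cancel (mul_right_cancel b2)), x2]) a4
    · exact ⟨k, b3, by rw [e1, b2]⟩
    · refine absurd ?_ (not_sq_of_cj hn (hc.trans (isConj_cj _ (F (k0 * k)))) (ρ⁻¹ * F w * ρ))
      rw [← mulc, ← h.mul _ _ a5 a5, a6, h.mul _ _ a1 tx, mulc, hρ, ← b2, ← h.cj tx (k1.mul_left b3),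
        show (k0 * k)⁻¹ * x * (k0 * k) = k⁻¹ * (k0⁻¹ * x * k0) * k by group, k2,
        show k⁻¹ * (x * τ) * k = k⁻¹ * x * k * (k⁻¹ * τ * k) by group, e1, cj_of_commute b3,
        h.mul _ _ b1 tt, h.base]
  have de : IsConj d (F e) := by
    obtain ⟨k, a1, a2, a3, a4⟩ := hy
    have a5 : IsConj d (F (k⁻¹ * x * k)) := by rw [h.cj tx a1]; exact hc.trans (isConj_cj _ _)
    obtain ⟨q, b1, b2⟩ := key _ (cc a1 tx) a2 a5 a3 a4
    rw [h.cj Q.te b1] at b2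
    exact (a5.trans (isConj_cj _ ρ)).trans (b2 ▸ isConj_cj _ _ : IsConj (F e) _).symm
  obtain ⟨a, a1, a2⟩ := key e Q.te (hx ▸ ((Commute.refl e).mul_right ef).mul_right eg) de
    (s1 ▸ n1) (s1 ▸ r1)
  obtain ⟨b, b1, b2⟩ := key f tf (hx ▸ (ef.symm.mul_right (Commute.refl f)).mul_right fg)
    (by rw [← kf2, h.cj Q.te kf1]; exact de.trans (isConj_cj _ _)) (s2 ▸ n2) (s2 ▸ r2)
  obtain ⟨c, c1, c2⟩ := key g tg (hx ▸ (eg.symm.mul_right fg.symm).mul_right (Commute.refl g))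
    (by rw [← kg2, h.cj Q.te kg1]; exact de.trans (isConj_cj _ _)) (s3 ▸ n3) (s3 ▸ r3)
  have ta := cc a1 Q.te
  have tb := cc b1 Q.te
  have tc := cc c1 Q.te
  have p1 : a⁻¹ * e * a * (b⁻¹ * e * b) * (c⁻¹ * e * c) = τ := h.eq ((ta.mul_left tb).mul_left tc) tt (by
    rw [h.mul _ _ (ta.mul_left tb) tc, h.mul _ _ ta tb, a2, b2, c2, ← mulc, ← mulc,
      ← h.mul _ _ Q.te tf, ← h.mul _ _ (Q.te.mul_left tf) tg, ← hx, hρ, h.base])
  have p2 : Commute (a⁻¹ * e * a) (b⁻¹ * e * b) := (h.comm ta tb).mp (by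
    rw [a2, b2]; exact commute_cj ((h.comm Q.te tf).mpr ef) ρ)
  have p3 : a⁻¹ * e * a ≠ b⁻¹ * e * b := fun e1 => n3 (by
    rw [e1, b2] at a2
    rw [← h.eq tf Q.te (mul_left_cancel (mul_right_cancel a2)), f2])
  obtain ⟨q, q1, q2, q3⟩ := Q.triple (a⁻¹⁻¹ * (b⁻¹ * e * b) * a⁻¹)
    ((Q.ce.trans (isConj_cj _ _)).trans (isConj_cj _ _)) (cc a1.inv_left tb) (by
      have := commute_cj p2.symm a⁻¹
      rwa [show a⁻¹⁻¹ * (a⁻¹ * e * a) * a⁻¹ = e by group] at this) (fun e1 => Q.ne1 (by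
      rw [show e = (b * a⁻¹)⁻¹⁻¹ * (a⁻¹⁻¹ * (b⁻¹ * e * b) * a⁻¹) * (b * a⁻¹)⁻¹ by group, e1]
      exact cj_of_commute (b1.mul_left a1.inv_left).inv_left)) (fun e1 => p3 (by
      conv_lhs => rw [← e1]
      group))
  obtain ⟨y, hy2⟩ := Q.r2
  have p4 : τ * e * f' = (a⁻¹ * q)⁻¹ * (c⁻¹ * e * c) * (a⁻¹ * q) := by
    have : c⁻¹ * e * c = τ * (a⁻¹ * e * a * (b⁻¹ * e * b)) := by
      rw [← (ta.mul_left tb).eq, ← p1, ← mul_assoc, sq_mul (sq_cj e2 a) (sq_cj e2 b) p2, one_mul]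
    rw [this]
    calc τ * e * f' = ((a⁻¹ * q)⁻¹ * τ * (a⁻¹ * q)) * (q⁻¹ * e * q) *
          (q⁻¹ * (a⁻¹⁻¹ * (b⁻¹ * e * b) * a⁻¹) * q) := by
          rw [cj_of_commute (a1.inv_left.mul_left q1), cj_of_commute q2, q3]
      _ = _ := by group
  refine not_sq_of_cj (fun w e1 => ?_) ((Q.ce.trans (isConj_cj _ c)).trans (isConj_cj _ _)) y
    (hy2.trans p4)
  have cw : Commute w τ := e1 ▸ (Commute.refl w).mul_right (Commute.refl w)
  exact hn (F w) (by rw [← h.mul _ _ cw cw, e1, h.base])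

theorem Emb0.emb3 (h : Emb0 τ d F) (hL : LC3 τ e x0) (he : Commute e τ) (h0 : Commute x0 τ)
    (hc : IsConj τ e) (hd : d * d = 1) (hn : ∀ y, y * y ≠ d)
    (hp : ∀ a, IsConj τ a → Commute a τ → a ≠ τ → ∃ k, Commute k τ ∧ k⁻¹ * e * k = a)
    (h2 : ¬ IsConj d (F x0)) {u : G} (u1 : IsConj d u) (u2 : Commute u d) (u3 : u ≠ d) :
    Emb τ d τ d F := by
  have key : ∀ a, Commute a τ → IsConj d (F a) → a = τ ∨ ∃ k, Commute k τ ∧ k⁻¹ * e * k = a :=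
    fun a ha h3 => (h.classes3 hL hd hn ha h3).imp id fun h4 => h4.resolve_right (by
      rintro ⟨k, h5, rfl⟩
      rw [h.cj h0 h5] at h3
      exact h2 (h3.trans (isConj_cj _ _).symm))
  have h1 : IsConj d (F e) := by
    obtain ⟨x, hx, rfl⟩ := h.surj u u2
    rcases key x hx u1 with e1 | ⟨k, k1, rfl⟩
    · exact absurd (e1 ▸ h.base) u3
    · rw [h.cj he k1] at u1
      exact u1.trans (isConj_cj _ _).symm
  refine ⟨h, fun a ha => ⟨fun h3 => ?_, fun h3 => ?_⟩⟩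
  · by_cases h4 : a = τ
    · rw [h4, h.base]
    · obtain ⟨k, h5, rfl⟩ := hp a h3 ha h4
      rw [h.cj he h5]
      exact h1.trans (isConj_cj _ _)
  · rcases key a ha h3 with h4 | ⟨k, _, rfl⟩
    · rw [h4]
    · exact hc.trans (isConj_cj _ _)

end

variable {φ : Γ →* Equiv.Perm ℕ} {ev : ℕ → Γ} {img : ℕ → ℕ → ℕ} {n m inv : ℕ} {bs tw : List ℕ}

theorem TM.lc3 (T : TM φ ev img n m inv bs tw) {σ Reps Rt : List (List ℕ)} {ew xw : List ℕ}
    (hc : ∀ x, Commute x (evL ev tw) → x * x = 1 → ∃ w ∈ Reps, ∃ k, Commute k (evL ev tw) ∧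
      (k⁻¹ * evL (evS ev σ) w * k = x ∨ k⁻¹ * (evL (evS ev σ) w * evL ev tw) * k = x))
    (hk : ∃ k, Commute k (evL ev tw) ∧ k⁻¹ * evL ev xw * k = evL ev xw * evL ev tw)
    (h : (Reps.all fun w => subst σ w == [] || subst σ w == xw ||
      ((subst σ w == ew || rootB img m inv bs Rt (subst σ w)) &&
        rootB img m inv bs Rt (subst σ w ++ tw))) = true) :
    LC3 (evL ev tw) (evL ev ew) (evL ev xw) := by
  intro x h1 h2
  obtain ⟨w, hw, k, k1, k2⟩ := hc x h1 h2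
  have := List.all_eq_true.mp h w hw
  simp only [Bool.or_eq_true, beq_iff_eq, Bool.and_eq_true] at this
  rw [evL_subst] at k2
  have key : ∀ v, rootB img m inv bs Rt v = true → k⁻¹ * evL ev v * k = x →
      ∃ y, Commute y (evL ev tw) ∧ y * y = x := fun v hv e => by
    obtain ⟨y, y1, y2⟩ := T.root hv
    exact ⟨k⁻¹ * y * k, (k1.inv_left.mul_left y1).mul_left k1, by rw [← e, ← y2]; group⟩
  rcases this with (e | e) | ⟨e, e'⟩
  · rw [e, evL_nil, one_mul, cj_of_commute k1, mul_one, inv_mul_cancel] at k2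
    exact k2.elim (fun a => Or.inl a.symm) fun a => Or.inr (Or.inl a.symm)
  · rw [e] at k2
    refine Or.inr (Or.inr (Or.inr (Or.inl (k2.elim (fun a => ⟨k, k1, a⟩) fun a => ?_))))
    obtain ⟨q, q1, q2⟩ := hk
    exact ⟨q * k, q1.mul_left k1, by rw [← a, ← q2]; group⟩
  · rw [← evL_append] at k2
    rcases k2 with a | a
    · rcases e with e | e
      · exact Or.inr (Or.inr (Or.inl ⟨k, k1, e ▸ a⟩))
      · exact Or.inr (Or.inr (Or.inr (Or.inr (key _ e a))))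
    · exact Or.inr (Or.inr (Or.inr (Or.inr (key _ e' a))))

theorem TM.cj (T : TM φ ev img n m inv bs tw) {k u w : List ℕ}
    (h : (fixB img m [0] k && eqB img m inv bs (invW inv k ++ u ++ k) w) = true) :
    Commute (evL ev k) (evL ev tw) ∧ (evL ev k)⁻¹ * evL ev u * evL ev k = evL ev w := by
  rw [Bool.and_eq_true] at h
  have := T.eq h.2
  rw [evL_append, evL_append, evL_invW T.good] at this
  exact ⟨T.comm0 h.1, this⟩

end Cfsg.H6
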