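import Cfsg.Agent.H6.Fis8

/-! Standard tuples up to automorphisms. -/

set_option autoImplicit false

namespace Cfsg.H6

universe u v

variable {G : Type v} [Group G] {Γ : Type u} [Group Γ] {τ : Γ} {d : G}

theorem Emb.aut {y' : Γ} {y : G} {F : Γ → G} (h : Emb τ d y' y F) (θ : Γ ≃* Γ)
    (hθ : IsConj τ (θ τ)) : ∃ F', Emb τ d (θ y') y F' ∧ ∀ a, F' (θ a) = F a := by
  have k : ∀ a, Commute a (θ y') → Commute (θ.symm a) y' := fun a ha => by
    simpa using ha.map θ.symm
  refine ⟨fun a => F (θ.symm a), ⟨⟨fun a b ha hb => ?_, fun a ha e => ?_, fun x hx => ?_, ?_⟩,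
    fun a ha => ?_⟩, fun a => by simp⟩
  · rw [map_mul, h.mul _ _ (k a ha) (k b hb)]
  · simpa using h.inj _ (k a ha) e
  · obtain ⟨a, ha, e⟩ := h.surj x hx
    exact ⟨θ a, ha.map θ, by simpa using e⟩
  · simpa using h.base
  · rw [← h.conj _ (k a ha)]
    constructor
    · intro e
      simpa using θ.symm.toMonoidHom.map_isConj (hθ.symm.trans e)
    · intro e
      exact hθ.trans (by simpa using θ.toMonoidHom.map_isConj e)

variable {φ : Γ →* Equiv.Perm ℕ} {ev : ℕ → Γ} {img : ℕ → ℕ → ℕ} {n m inv : ℕ} {bs tw : List ℕ}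

/-- The tuple is standard up to an automorphism preserving the class. -/
def Std0 (ev : ℕ → Γ) (tw : List ℕ) (S0 : List Std) (k : ℕ) (xs : ℕ → Γ) : Prop :=
  ∃ θ : Γ ≃* Γ, IsConj (evL ev tw) (θ (evL ev tw)) ∧ ∀ j < k, θ (xs j) = evS ev (sW S0) j

def BrA (ev : ℕ → Γ) (tw : List ℕ) (S0 : List Std) (k : ℕ) (R N : List (List ℕ)) (S : List Std) :
    Prop :=
  ∀ xs, Tup (evL ev tw) k R N xs → (∃ h, ∀ j < S.length, h⁻¹ * xs j * h = evS ev (sW S) j) →
    Std0 ev tw S0 k xs

theorem BrA.done {S0 : List Std} {k : ℕ} {R N : List (List ℕ)} {S : List Std}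
    (h : (S == S0 && Nat.beq S.length k) = true) : BrA ev tw S0 k R N S := by
  simp only [Bool.and_eq_true, beq_iff_eq, Nat.beq_eq] at h
  rintro xs _ ⟨g, e⟩
  rw [h.2, h.1] at e
  exact ⟨MulAut.conj g⁻¹, by simpa using isConj_cj _ g, fun j hj => by simpa using e j hj⟩

theorem TM.twist (T : TM φ ev img n m inv bs tw) (θ : Γ ≃* Γ) {pm : List (List ℕ)}
    (hθ : ∀ l, θ (ev l) = evS ev pm l) (hc : IsConj (evL ev tw) (θ (evL ev tw))) {S0 : List Std}
    {k : ℕ} {R N : List (List ℕ)} {S : List Std} {w : List ℕ}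
    (h : (Nat.beq S.length k && (List.range k).all fun j => eqB img m inv bs
      (invW inv w ++ subst pm ((sW S).getD j []) ++ w) ((sW S0).getD j [])) = true) :
    BrA ev tw S0 k R N S := by
  simp only [Bool.and_eq_true, Nat.beq_eq, List.all_eq_true, List.mem_range] at h
  rintro xs _ ⟨g, e⟩
  rw [h.1] at e
  refine ⟨((MulAut.conj g⁻¹).trans θ).trans (MulAut.conj (evL ev w)⁻¹), ?_, fun j hj => ?_⟩
  · simp only [MulEquiv.trans_apply, MulAut.conj_apply, inv_inv]
    rw [map_mul, map_mul, map_inv]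
    exact (hc.trans (isConj_cj _ _)).trans (isConj_cj _ _)
  · have a := T.eq (h.2 j hj)
    rw [evL_append, evL_append, evL_invW T.good, ← evL_subst, ← funext hθ] at a
    simp only [MulEquiv.trans_apply, MulAut.conj_apply, inv_inv]
    rw [e j hj, evS, evS, ← a]
    congr 2
    exact map_evL θ.toMonoidHom _ _

theorem TM.brA (T : TM φ ev img n m inv bs tw) {S0 S L : List Std} {k : ℕ} {R N : List (List ℕ)}
    {s : Step} (h : (Nat.blt S.length k && S.all (stdChk img m inv bs tw) &&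
      stepChk img n m inv bs tw S R N S.length L s) = true)
    (hL : ∀ e ∈ L, BrA ev tw S0 k R N (S ++ [e])) : BrA ev tw S0 k R N S := by
  rw [Bool.and_eq_true, Bool.and_eq_true, Nat.blt_eq] at h
  intro xs hx hr
  obtain ⟨g, h1, e, he, h2⟩ := T.among h.1.2 h.1.1 h.2 xs hx hr
  refine hL e he xs hx ⟨g, fun j hj => ?_⟩
  rw [List.length_append, List.length_singleton] at hj
  have hl : (sW S).length = S.length := by simp [sW]
  have e0 : sW (S ++ [e]) = sW S ++ [e.2.2] := by simp [sW]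
  rcases (Nat.lt_succ_iff.mp hj).lt_or_eq with e1 | e1
  · rw [h1 j e1, e0, evS, evS, List.getD_append _ _ _ _ (by omega)]
  · rw [e1, h2, e0, evS, List.getD_append_right _ _ _ _ (by omega), hl, Nat.sub_self]
    rfl

theorem BrA.rig {S0 : List Std} {k : ℕ} {R N : List (List ℕ)} {S : List Std}
    (h : BrA ev tw S0 k R N S) (h' : Rig ev tw S k R N S.length) :
    ∀ xs, Tup (evL ev tw) k R N xs → Std0 ev tw S0 k xs :=
  fun xs hx => h xs hx (h' xs hx)

noncomputable def extChkB (img : ℕ → ℕ → ℕ) (n m : ℕ) (bs : List ℕ) (Sg As σ R0 : List (List ℕ))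
    (S : List Std) (k : ℕ) (R N : List (List ℕ)) (l0 : ℕ) (A : List ℕ) : Bool :=
  Nat.blt 0 k && Nat.ble k S.length && sW S == σ.map (subst Sg) &&
  ((List.range k).all fun j => inA As (σ.getD j []) && (j == 0 || R.elem [0, j, 0, j])) &&
  ((R ++ N).all fun w => w.all fun l => Nat.blt l k) &&
  (R.all fun r => R0.elem (subst σ r) ||
    (inA As (subst σ r) && fixB img m bs (subst Sg (subst σ r)))) &&
  (N.all fun r => inA As (subst σ r) && movB img n m bs (subst Sg (subst σ r))) &&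
  (As.all fun B => !B.elem l0) &&
  (A.all fun l => l == l0 || (List.range k).any fun j => σ.getD j [] == [l]) &&
  fixB img m [(S.getD 0 (0, [], [])).1] (Sg.getD l0 [])

theorem Locs.bridge {Sg As : List (List ℕ)} {X : ℕ → G} (hL : Locs τ d (evS ev Sg) X As)
    (ho : Oracle ev img m bs) {u s v : List ℕ}
    (h : ([u ++ s, s.reverse ++ v, s ++ s.reverse].all fun r =>
      inA As r && fixB img m bs (subst Sg r)) = true) : Rels X [u ++ v] := by
  have k := hL.rels ho h
  have a := k _ List.mem_cons_self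
  have b := k _ (List.mem_cons_of_mem _ List.mem_cons_self)
  have c := k _ (List.mem_cons_of_mem _ (List.mem_cons_of_mem _ List.mem_cons_self))
  rw [evL_append] at a b c
  intro r hr
  rw [List.mem_singleton.mp hr, evL_append, eq_inv_of_mul_eq_one_left a,
    eq_inv_of_mul_eq_one_right b, ← mul_inv_rev, eq_inv_of_mul_eq_one_right c, inv_mul_cancel, inv_one]

theorem Locs.extendA (T : TM φ ev img n m inv bs tw) {F0 : Γ → G}
    (hF : Emb (evL ev tw) d (evL ev tw) d F0) {Sg As σ R0 : List (List ℕ)} {X : ℕ → G}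
    (hL : Locs (evL ev tw) d (evS ev Sg) X As) (h0 : Rels X R0) {S : List Std} {k : ℕ} {R N : List (List ℕ)}
    (hS : S.all (stdChk img m inv bs tw) = true) (hr : ∀ xs, Tup (evL ev tw) k R N xs → Std0 ev tw S k xs) {l0 : ℕ} {A : List ℕ}
    (hc : extChkB img n m bs Sg As σ R0 S k R N l0 A = true) :
    ∃ X' : ℕ → G, (∀ l, l ≠ l0 → X' l = X l) ∧ Locs (evL ev tw) d (evS ev Sg) X' (A :: As) := by
  unfold extChkB at hc
  simp only [Bool.and_eq_true] at hc
  obtain ⟨⟨⟨⟨⟨⟨⟨⟨⟨c1, c2⟩, c3⟩, c4⟩, c5⟩, c6⟩, c7⟩, c8⟩, c9⟩, c10⟩ := hc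
  simp only [List.all_eq_true, Bool.and_eq_true, Nat.blt_eq, Nat.ble_eq, beq_iff_eq, List.mem_range,
    Bool.or_eq_true, List.any_eq_true, Bool.not_eq_true'] at c1 c2 c3 c4 c6 c7 c8 c9
  have hd : d * d = 1 := by
    rw [← hF.base, ← hF.mul _ _ (Commute.refl _) (Commute.refl _), T.sq, hF.one]
  have s1 : ∀ j, evS ev (sW S) j = evL (evS ev Sg) (σ.getD j []) := fun j => by
    rw [c3, evL_subst, evS]
    congr 1
    simp only [List.getD_eq_getElem?_getD, List.getElem?_map]
    cases σ[j]? <;> rfl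
  have s2 : ∀ j < k, At φ (evL ev tw) (evS ev (sW S) j) (S.getD j (0, [], [])).1 := fun j hj => by
    rw [evS_sW (by omega), List.getD_eq_getElem _ _ (by omega)]
    exact (T.std (List.all_eq_true.mp hS _ (List.getElem_mem _))).2
  have hx : Tup d k R N (evS X σ) := by
    refine ⟨fun j hj => (hL.spec (c4 j hj).1).2.mp (s1 j ▸ (s2 j hj).isConj), fun r hr => ?_,
      fun r hr e => ?_⟩
    · rw [evL_subst]
      rcases c6 r hr with e | e
      · exact h0 _ (List.mem_of_elem_eq_true e)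
      · exact (hL.spec e.1).1.mp (by rw [evL_subst]; exact T.ora _ e.2)
    · rw [evL_subst] at e
      have := (hL.spec (c7 r hr).1).1.mpr e
      rw [evL_subst] at this
      exact T.act.mov (c7 r hr).2 this
  obtain ⟨F1, h1⟩ := hF.exists (s2 0 c1).isConj (hx.cj 0 c1)
  obtain ⟨ys, y1, y2, y3⟩ := h1.pull hx rfl (fun j hj => by
    rcases (c4 j hj).2 with e | e
    · rw [e]
    · refine Commute.symm ?_
      rw [commute_iff_sq (sq_of_isConj hd (hx.cj 0 c1)) (sq_of_isConj hd (hx.cj j hj))]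
      simpa [evL] using hx.rel _ (List.mem_of_elem_eq_true e)) c1 c5
  obtain ⟨g, g1, hg⟩ := hr ys y1
  have g0 : g (evS ev (sW S) 0) = evS ev (sW S) 0 := by
    have := hg 0 c1
    rwa [y2] at this
  obtain ⟨F2, h2, h3⟩ := h1.aut g g1
  rw [g0] at h2
  refine ⟨Function.update X l0 (F2 (evS ev Sg l0)), fun l hl => Function.update_of_ne hl _ _,
    List.forall_mem_cons.mpr ⟨h2.loc fun l hl => ?_, fun B hB w hw => ?_⟩⟩
  · by_cases e : l = l0
    · rw [e, Function.update_self]
      unfold fixB at c10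
      simp only [Bool.and_eq_true, List.all_cons, List.all_nil, Nat.beq_eq, and_true] at c10
      exact ⟨(T.commW (s2 0 c1) c10.1).mpr c10.2, rfl⟩
    · obtain ⟨j, hj, e1⟩ := (c9 l hl).resolve_left e
      have e2 : evS ev Sg l = g (ys j) := by rw [hg j hj, s1, e1, evL_singleton]
      rw [Function.update_of_ne e, e2, h3, (y3 j hj).2]
      refine ⟨?_, by rw [evS, e1, evL_singleton]⟩
      have := (y3 j hj).1.map g
      rwa [g0] at this
  · rw [evL_congr (ev := Function.update X l0 _) (ev' := X) fun l hl => Function.update_of_ne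
      (fun e => by
        have := c8 B hB
        rw [← e, List.elem_eq_true_of_mem (hw l hl)] at this
        exact absurd this (by decide)) _ _]
    exact hL B hB w hw

end Cfsg.H6
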