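import Cfsg.Agent.H6.More3

/-! Simplicity of a subgroup of index two. -/

set_option autoImplicit false

namespace Cfsg.H6

variable {G : Type*} [Group G]

theorem commutator_le_of_index_two {N : Subgroup G} (h : N.index = 2) : commutator G ≤ N := by
  have := Subgroup.normal_of_index_eq_two h
  have hcard : Nat.card (G ⧸ N) = 2 := h
  have : Fact (Nat.Prime 2) := ⟨Nat.prime_two⟩
  have hcyc : IsCyclic (G ⧸ N) := isCyclic_of_prime_card hcard
  let _i : CommGroup (G ⧸ N) := IsCyclic.commGroup
  have h1 := Abelianization.commutator_subset_ker (QuotientGroup.mk' N)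
  rwa [QuotientGroup.ker_mk'] at h1

theorem simple_of_index_two [Finite G] {K : Subgroup G} (h : K.index = 2)
    (hN : ∀ (N : Subgroup G) [N.Normal], N ≠ ⊥ → K ≤ N) (h1 : Nat.card K ≠ 1)
    (h2 : ∀ k, Nat.card K ≠ k * k) : IsSimpleGroup K := by
  have hKn := Subgroup.normal_of_index_eq_two h
  have : Nontrivial K := Finite.one_lt_card_iff_nontrivial.mp (by
    have : 0 < Nat.card K := Nat.card_pos
    omega)
  obtain ⟨a, ha⟩ := Subgroup.index_eq_two_iff.mp h
  refine ⟨fun M hM => ?_⟩
  by_cases hb : M = ⊥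
  · exact Or.inl hb
  right
  set A : Subgroup G := M.map K.subtype with hA
  have hAK : A ≤ K := Subgroup.map_subtype_le M
  have hAc : ∀ k ∈ K, ∀ x ∈ A, k * x * k⁻¹ ∈ A := by
    rintro k hk _ ⟨x, hx, rfl⟩
    exact ⟨_, hM.conj_mem x hx ⟨k, hk⟩, rfl⟩
  have haK : a ∉ K := by
    intro h0
    have := ha 1
    simp [h0, K.one_mem] at this
  have haa : ∀ g, g ∉ K → g * a ∈ K := fun g hg => by
    rcases ha g with ⟨h3, _⟩ | ⟨h3, _⟩
    · exact h3
    · exact absurd h3 hg
  set B : Subgroup G := A.map (MulAut.conj a).toMonoidHom with hB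
  have memB : ∀ x, x ∈ B ↔ a⁻¹ * x * a ∈ A := fun x => by
    constructor
    · rintro ⟨y, hy, rfl⟩
      simpa [mul_assoc] using hy
    · intro hx
      exact ⟨_, hx, by simp [mul_assoc]⟩
  have hBc : ∀ k ∈ K, ∀ x ∈ B, k * x * k⁻¹ ∈ B := by
    intro k hk x hx
    rw [memB] at hx ⊢
    have := hAc _ (hKn.conj_mem' k hk a) _ hx
    convert this using 1
    group
  have hAB : ∀ g, g ∉ K → ∀ x ∈ A, g * x * g⁻¹ ∈ B := by
    intro g hg x hx
    rw [memB]
    have h3 : a⁻¹ * g ∈ K := by
      have := hKn.conj_mem' _ (K.inv_mem (haa g⁻¹ fun e => hg (by simpa using K.inv_mem e))) 1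
      simpa using this
    convert hAc _ h3 x hx using 1
    group
  have hBA : ∀ g, g ∉ K → ∀ x ∈ B, g * x * g⁻¹ ∈ A := by
    intro g hg x hx
    rw [memB] at hx
    convert hAc _ (haa g hg) _ hx using 1
    group
  have hinf : (A ⊓ B).Normal := ⟨fun x hx g => by
    by_cases hg : g ∈ K
    · exact ⟨hAc g hg x hx.1, hBc g hg x hx.2⟩
    · exact ⟨hBA g hg x hx.2, hAB g hg x hx.1⟩⟩
  have hAtop : K ≤ A → M = ⊤ := fun h3 => by
    rw [eq_top_iff]
    intro x _
    obtain ⟨y, hy, e⟩ := h3 x.2
    rwa [← Subtype.ext e]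
  by_cases hi : A ⊓ B = ⊥
  · exfalso
    have hBK : B ≤ K := fun x hx => by
      have := hKn.conj_mem _ (hAK ((memB x).mp hx)) a
      simpa [mul_assoc] using this
    have hsup : (A ⊔ B).Normal := ⟨fun x hx g => by
      have : A ⊔ B ≤ (A ⊔ B).comap (MulAut.conj g).toMonoidHom := by
        refine sup_le (fun y hy => ?_) fun y hy => ?_
        · by_cases hg : g ∈ K
          · exact Subgroup.mem_sup_left (hAc g hg y hy)
          · exact Subgroup.mem_sup_right (hAB g hg y hy)
        · by_cases hg : g ∈ K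
          · exact Subgroup.mem_sup_right (hBc g hg y hy)
          · exact Subgroup.mem_sup_left (hBA g hg y hy)
      exact this hx⟩
    have hne : A ⊔ B ≠ ⊥ := fun e => hb (by
      have : A = ⊥ := le_bot_iff.mp (e ▸ le_sup_left)
      exact (Subgroup.map_eq_bot_iff_of_injective _ K.subtype_injective).mp this)
    have hK : K = A ⊔ B := le_antisymm (hN _ hne) (sup_le hAK hBK)
    have hcomm : ∀ (x : A) (y : B), Commute (A.subtype x) (B.subtype y) := by
      intro x y
      have h3 : (x : G) * y * (x : G)⁻¹ * (y : G)⁻¹ ∈ A ⊓ B :=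
        ⟨by
          have := A.mul_mem x.2 (hAc _ (hBK y.2) _ (A.inv_mem x.2))
          simpa [mul_assoc] using this,
        B.mul_mem (hBc _ (hAK x.2) _ y.2) (B.inv_mem y.2)⟩
      rw [hi, Subgroup.mem_bot, mul_inv_eq_one, mul_inv_eq_iff_eq_mul] at h3
      exact h3
    have hinj : Function.Injective (A.subtype.noncommCoprod B.subtype hcomm) := by
      rw [injective_iff_map_eq_one]
      rintro ⟨x, y⟩ hxy
      have h3 : (x : G) * y = 1 := hxy
      have h4 : (x : G) ∈ A ⊓ B := ⟨x.2, by
        rw [mul_eq_one_iff_eq_inv] at h3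
        rw [h3]
        exact B.inv_mem y.2⟩
      rw [hi, Subgroup.mem_bot] at h4
      rw [h4, one_mul] at h3
      exact Prod.ext (Subtype.ext h4) (Subtype.ext h3)
    have hr : (A.subtype.noncommCoprod B.subtype hcomm).range = K := by
      rw [MonoidHom.noncommCoprod_range, Subgroup.range_subtype, Subgroup.range_subtype, hK]
    apply h2 (Nat.card A)
    rw [← hr, ← Nat.card_congr (MonoidHom.ofInjective hinj).toEquiv, Nat.card_prod,
      show Nat.card B = Nat.card A from
        Subgroup.card_map_of_injective (f := (MulAut.conj a).toMonoidHom) (MulAut.conj a).injective]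
  · exact hAtop ((hN _ hi).trans inf_le_left)

end Cfsg.H6
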