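import Cfsg.Agent.H6.More3

/-! Classes of involutions, read off a subgroup of odd index that is given as a union of cosets of an
elementary abelian subgroup. -/

set_option autoImplicit false

namespace Cfsg.H6

variable {G : Type*} [Group G]

/-! ### Closure by bit masks with a final check -/

noncomputable def orbK (img : ℕ → ℕ → ℕ) (Ws : List (List ℕ)) (fin : ℕ → Bool) (us : List ℕ) :
    ℕ → Bool :=
  @List.rec _ (fun _ => ℕ → Bool) fin (fun u _ ih M => orbU img Ws ih M u) us

theorem orbK_sound {img : ℕ → ℕ → ℕ} {Ws : List (List ℕ)} {fin : ℕ → Bool} {P : ℕ → Prop}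
    (hP : ∀ w ∈ Ws, ∀ p, P p → P (trF img w p)) (us : List ℕ) :
    ∀ M : ℕ, (∀ p, M.testBit p = true → P p) → orbK img Ws fin us M = true →
      ∃ M' : ℕ, (∀ p, M'.testBit p = true → P p) ∧ fin M' = true := by
  induction us with
  | nil => intro M h1 h2; exact ⟨M, h1, h2⟩
  | cons u us ih =>
    intro M h1 h3
    have h4 : orbU img Ws (orbK img Ws fin us) M u = true := h3
    unfold orbU at h4
    rw [frcB_eq] at h4
    generalize Nat.shiftRight u 8 = p at h4
    have hw : ∀ p, P p → P (trF img (nthW Ws (Nat.land u 255)) p) := by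
      rcases nthW_mem Ws (Nat.land u 255) with e | e
      · rw [e]; exact fun _ h => h
      · exact hP _ e
    generalize nthW Ws (Nat.land u 255) = w at h4 hw
    unfold orbS at h4
    cases hb : Nat.blt (Nat.land (Nat.shiftRight M (trF img w p)) 1)
        (Nat.land (Nat.shiftRight M p) 1) with
    | false => rw [hb] at h4; exact absurd h4 (by simp)
    | true =>
      rw [hb] at h4
      rw [Nat.blt_eq, land_one_testBit, land_one_testBit] at hb
      have hp : M.testBit p = true := by
        by_contra hc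
        rw [if_neg hc] at hb
        omega
      refine ih _ (fun q hq => ?_) h4
      change (M ||| 1 <<< trF img w p).testBit q = true at hq
      rw [Nat.testBit_or, Nat.one_shiftLeft, Nat.testBit_two_pow, Bool.or_eq_true,
        decide_eq_true_eq] at hq
      rcases hq with hq | hq
      · exact h1 q hq
      · exact hq ▸ hw p (h1 p hp)

/-- The bit of a mask. -/
noncomputable def bit (M p : ℕ) : Bool := Nat.beq (Nat.land (Nat.shiftRight M p) 1) 1

theorem bit_spec {M p : ℕ} (h : bit M p = true) : M.testBit p = true := by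
  unfold bit at h
  rw [land_one_testBit] at h
  by_contra hc
  rw [if_neg hc] at h
  exact absurd h (by decide)

/-- The mask of a list. -/
def maskL (L : List ℕ) : ℕ := L.foldr (fun p M => Nat.lor M (Nat.shiftLeft 1 p)) 0

theorem maskL_spec {L : List ℕ} {p : ℕ} (h : (maskL L).testBit p = true) : p ∈ L := by
  induction L with
  | nil => simp [maskL] at h
  | cons q L ih =>
    change (maskL L ||| 1 <<< q).testBit p = true at h
    rw [Nat.testBit_or, Nat.one_shiftLeft, Nat.testBit_two_pow, Bool.or_eq_true,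
      decide_eq_true_eq] at h
    rcases h with h | h
    · exact List.mem_cons_of_mem _ (ih h)
    · exact h ▸ List.mem_cons_self

/-! ### Elementary abelian groups by masks -/

/-- The word of a mask: letter `k + 1` for bit `k`. -/
def bw (v : ℕ) : ℕ → List ℕ
  | 0 => []
  | k + 1 => if v.testBit k then (k + 1) :: bw v k else bw v k

/-- The first `r` letters are commuting involutions. -/
def EA (X : ℕ → G) (r : ℕ) : Prop :=
  (∀ k < r, X (k + 1) * X (k + 1) = 1) ∧ ∀ j < r, ∀ k < r, Commute (X (j + 1)) (X (k + 1))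

variable {X : ℕ → G} {r : ℕ}

theorem EA.comm_bw (h : EA X r) {j : ℕ} (hj : j < r) (v : ℕ) :
    ∀ k ≤ r, Commute (X (j + 1)) (evL X (bw v k)) := by
  intro k
  induction k with
  | zero => intro _; exact Commute.one_right _
  | succ k ih =>
    intro hk
    unfold bw
    split_ifs
    · rw [evL_cons]
      exact (h.2 j hj k (by omega)).mul_right (ih (by omega))
    · exact ih (by omega)

theorem EA.xor (h : EA X r) (u v : ℕ) :
    ∀ k ≤ r, evL X (bw (u ^^^ v) k) = evL X (bw u k) * evL X (bw v k) := by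
  intro k
  induction k with
  | zero => intro _; simp [bw, evL]
  | succ k ih =>
    intro hk
    have h1 := ih (by omega)
    have h2 := (h.comm_bw (j := k) (by omega) u k (by omega)).eq
    have h3 := h.1 k (by omega)
    unfold bw
    rw [Nat.testBit_xor]
    cases u.testBit k <;> cases v.testBit k <;> simp only [Bool.xor_false, Bool.xor_true,
      Bool.not_true, Bool.not_false, Bool.false_eq_true, if_true, if_false, evL_cons, h1]
    · rw [← mul_assoc, h2, mul_assoc]
    · rw [mul_assoc]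
    · rw [mul_assoc, ← mul_assoc (evL X (bw u k)), ← h2, ← mul_assoc, ← mul_assoc, h3, one_mul]

theorem bw_zero (k : ℕ) : bw 0 k = [] := by
  induction k with
  | zero => rfl
  | succ k ih => simp [bw, ih]

theorem bw_mod (v : ℕ) : ∀ k ≤ r, bw (v % 2 ^ r) k = bw v k := by
  intro k
  induction k with
  | zero => intro _; rfl
  | succ k ih =>
    intro hk
    unfold bw
    rw [ih (by omega), Nat.testBit_mod_two_pow, decide_eq_true (by omega : k < r), Bool.true_and]

theorem bw_pow {j : ℕ} : ∀ k, bw (2 ^ j) k = if j < k then [j + 1] else [] := by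
  intro k
  induction k with
  | zero => rfl
  | succ k ih =>
    unfold bw
    rw [ih, Nat.testBit_two_pow]
    by_cases h : j = k
    · subst h; simp
    · by_cases h2 : j < k
      · simp [h, h2, show j < k + 1 by omega]
      · simp [h, h2, show ¬ j < k + 1 by omega]

theorem EA.conj (h : EA X r) {g : G} {A : ℕ → ℕ}
    (hA : ∀ k < r, g⁻¹ * X (k + 1) * g = evL X (bw (A k) r)) (v : ℕ) :
    ∀ k ≤ r, g⁻¹ * evL X (bw v k) * g = evL X (bw (xv A v k) r) := by
  intro k
  induction k with
  | zero => intro _; simp [bw, evL, xv, bw_zero]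
  | succ k ih =>
    intro hk
    have e : xv A v (k + 1) = xv A v k ^^^ (Nat.land (Nat.shiftRight v k) 1 * A k) := rfl
    rw [e, land_one_testBit, Nat.xor_comm, h.xor _ _ r le_rfl, ← ih (by omega)]
    have e2 : bw v (k + 1) = if v.testBit k then (k + 1) :: bw v k else bw v k := rfl
    rw [e2]
    split_ifs
    · rw [one_mul, ← hA k (by omega), evL_cons]
      group
    · rw [zero_mul, bw_zero, evL_nil, one_mul]

/-- The action of the letters on masks. -/
noncomputable def lin (A : List (List ℕ)) (r x v : ℕ) : ℕ := xv (nthN (nthW A x)) v r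

theorem exists_conj_mem_of_odd [Finite G] {T : Subgroup G} (hT : Odd T.index) {x : G} {k : ℕ}
    (hx : x ^ 2 ^ k = 1) : ∃ g : G, g⁻¹ * x * g ∈ T := by
  have : Fact (Nat.Prime 2) := ⟨Nat.prime_two⟩
  have hp : IsPGroup 2 (Subgroup.zpowers x) := by
    rintro ⟨_, n, rfl⟩
    refine ⟨k, Subtype.ext ?_⟩
    show (x ^ n) ^ 2 ^ k = 1
    rw [← zpow_natCast, ← zpow_mul, mul_comm, zpow_mul, zpow_natCast, hx, one_zpow]
  obtain ⟨q, hq⟩ := hp.nonempty_fixed_point_of_prime_not_dvd_card (G ⧸ T)
    (by rw [← Subgroup.index, ← even_iff_two_dvd]; exact Nat.not_even_iff_odd.mpr hT)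
  induction q using QuotientGroup.induction_on with
  | H g =>
    have h1 := hq ⟨x, Subgroup.mem_zpowers x⟩
    have h2 : ((x * g : G) : G ⧸ T) = g := h1
    refine ⟨g, ?_⟩
    have := T.inv_mem (QuotientGroup.eq.mp h2)
    simpa [mul_assoc] using this

/-- The data of one class of cosets: representative, its square, conjugating words with their
shifts, starting masks with conjugating words and targets, units. -/
abbrev ICls : Type := List ℕ × ℕ × List (List ℕ × ℕ) × List (ℕ × List ℕ × List ℕ) × List ℕ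

section
variable (chk : List ℕ → Bool) (inv : ℕ) (σ : List (List ℕ)) (r : ℕ) (A : List (List ℕ))

/-- Equality of two words in the substituted letters. -/
def eqS (u v : List ℕ) : Bool := chk (subst σ u ++ invW inv (subst σ v))

def eaChk : Bool :=
  (List.range r).all fun j => eqS chk inv σ [j + 1, j + 1] [] &&
    (List.range j).all fun k => eqS chk inv σ [j + 1, k + 1] [k + 1, j + 1]

noncomputable def linChk (x : ℕ) : Bool :=
  (List.range r).all fun k => eqS chk inv σ [k + 1, x] (x :: bw (nthN (nthW A x) k) r)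

noncomputable def affI (H : List (List ℕ × ℕ)) (j v : ℕ) : ℕ :=
  Nat.xor (nthN (H.map Prod.snd) j) (trF (lin A r) (nthW (H.map Prod.fst) j) v)

noncomputable def clsChk (Reps : List (List ℕ)) (c : ICls) : Bool :=
  inR σ.length c.1 && eqS chk inv σ (c.1 ++ c.1) (bw c.2.1 r) &&
  (List.range c.2.2.1.length).all (fun j => inR σ.length (nthW (c.2.2.1.map Prod.fst) j) &&
    eqS chk inv σ (c.1 ++ nthW (c.2.2.1.map Prod.fst) j)
      (nthW (c.2.2.1.map Prod.fst) j ++ c.1 ++ bw (nthN (c.2.2.1.map Prod.snd) j) r)) &&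
  (c.2.2.2.1.all fun e => Reps.elem e.2.2 &&
    chk (invW inv e.2.1 ++ subst σ (c.1 ++ bw e.1 r) ++ e.2.1 ++ invW inv e.2.2)) &&
  orbK (affI r A c.2.2.1) ((List.range c.2.2.1.length).map fun j => [j])
    (fun M => allR (fun v => bit M v || !Nat.beq (Nat.mod (Nat.xor (Nat.xor c.2.1
      (trF (lin A r) c.1 v)) v) (2 ^ r)) 0) 0 (2 ^ r))
    c.2.2.2.2 (maskL (c.2.2.2.1.map Prod.fst))

/-- The data of one coset: word, images and shifts under the letters, conjugating word, shift,
class. -/
abbrev ICos : Type := List ℕ × List ℕ × List ℕ × List ℕ × ℕ × ℕ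

noncomputable def csI (M : List ICos) (t i : ℕ) : ℕ := nthN (nthW (M.map fun e => e.2.1) i) t

noncomputable def cosChk (s : ℕ) (M : List ICos) (Cw : List (List ℕ)) (i : ℕ) : Bool :=
  let e := M.getD i ([], [], [], [], 0, 0)
  (e.1.all fun x => Nat.blt r x && Nat.ble x (r + s)) &&
  ((List.range s).all fun t => Nat.blt (csI M (r + 1 + t) i) M.length &&
    eqS chk inv σ (e.1 ++ [r + 1 + t])
      (nthW (M.map Prod.fst) (csI M (r + 1 + t) i) ++ bw (nthN e.2.2.1 t) r)) &&
  (!Nat.beq (trF (csI M) e.1 i) 0 || (inR σ.length e.2.2.2.1 && Nat.blt e.2.2.2.2.2 Cw.length &&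
    eqS chk inv σ (e.1 ++ e.2.2.2.1) (e.2.2.2.1 ++ nthW Cw e.2.2.2.2.2 ++ bw e.2.2.2.2.1 r)))

end

variable {ev : ℕ → G} {chk : List ℕ → Bool} {inv : ℕ} {σ A : List (List ℕ)}

theorem eqS_spec (hev : Good ev inv) (ho : ∀ w, chk w = true → evL ev w = 1) {u v : List ℕ}
    (h : eqS chk inv σ u v = true) : evL (evS ev σ) u = evL (evS ev σ) v := by
  have := ho _ h
  rwa [evL_append, evL_invW hev, mul_inv_eq_one, ← evL_subst, ← evL_subst] at this

theorem ea_of_chk (hev : Good ev inv) (ho : ∀ w, chk w = true → evL ev w = 1)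
    (h : eaChk chk inv σ r = true) : EA (evS ev σ) r := by
  unfold eaChk at h
  simp only [List.all_eq_true, List.mem_range, Bool.and_eq_true] at h
  have key : ∀ j < r, ∀ k < j, Commute (evS ev σ (j + 1)) (evS ev σ (k + 1)) := fun j hj k hk => by
    have := eqS_spec hev ho ((h j hj).2 k hk)
    unfold Commute SemiconjBy
    simpa [evL] using this
  refine ⟨fun k hk => by simpa [evL] using eqS_spec hev ho (h k hk).1, fun j hj k hk => ?_⟩
  rcases lt_trichotomy j k with e | e | e
  · exact (key k hk j e).symm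
  · rw [e]
  · exact key j hj k e

/-- The letters act on the elementary abelian group as the masks say. -/
def Lin (X : ℕ → G) (r : ℕ) (A : List (List ℕ)) (m : ℕ) : Prop :=
  ∀ w, inR m w = true → ∀ v, (evL X w)⁻¹ * evL X (bw v r) * evL X w = evL X (bw (trF (lin A r) w v) r)

theorem lin_of_chk (hev : Good ev inv) (ho : ∀ w, chk w = true → evL ev w = 1)
    (he : EA (evS ev σ) r) {m : ℕ} (h : ∀ x, 1 ≤ x → x < m → linChk chk inv σ r A x = true) :
    Lin (evS ev σ) r A m := by
  intro w hw
  have hw' := inR_spec hw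
  clear hw
  induction w with
  | nil => intro v; simp [evL, trF_eq, tr_nil]
  | cons x w ih =>
    intro v
    have h1 := h x (hw' x (by simp)).1 (hw' x (by simp)).2
    unfold linChk at h1
    simp only [List.all_eq_true, List.mem_range] at h1
    have h2 := he.conj (g := evS ev σ x) (A := nthN (nthW A x)) (fun k hk => by
      have := eqS_spec hev ho (h1 k hk)
      rw [evL_cons, evL_singleton, evL_cons] at this
      rw [mul_assoc, this, inv_mul_cancel_left]) v r le_rfl
    have h3 := ih (fun y hy => hw' y (by simp [hy])) (lin A r x v)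
    rw [trF_eq] at h3 ⊢
    rw [tr_cons, ← h3, evL_cons]
    unfold lin
    rw [← h2]
    group

theorem nthW_eq (Ws : List (List ℕ)) (i : ℕ) : nthW Ws i = Ws.getD i [] := by
  induction Ws generalizing i with
  | nil => rfl
  | cons w Ws ih => cases i with
    | zero => rfl
    | succ j => exact ih j

theorem cls_sound (hev : Good ev inv) (ho : ∀ w, chk w = true → evL ev w = 1)
    (he : EA (evS ev σ) r) (hl : Lin (evS ev σ) r A σ.length)
    (hinj : ∀ v < 2 ^ r, evL (evS ev σ) (bw v r) = 1 → v = 0) {Reps : List (List ℕ)} {c : ICls}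
    (h : clsChk chk inv σ r A Reps c = true) (v : ℕ) {x : G}
    (hx : x = evL (evS ev σ) c.1 * evL (evS ev σ) (bw v r)) (hx2 : x * x = 1) :
    ∃ w ∈ Reps, IsConj x (evL ev w) := by
  unfold clsChk at h
  simp only [Bool.and_eq_true, List.all_eq_true, List.mem_range] at h
  obtain ⟨⟨⟨⟨h1, h2⟩, h3⟩, h4⟩, h5⟩ := h
  set Y := evS ev σ
  have eqY : ∀ {u v}, eqS chk inv σ u v = true → evL Y u = evL Y v := fun h => eqS_spec hev ho h
  obtain ⟨M, hM, hf⟩ := orbK_sound
    (P := fun v => ∃ w ∈ Reps, IsConj (evL Y c.1 * evL Y (bw v r)) (evL ev w)) (by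
      intro w hw p ⟨u, hu, hp⟩
      obtain ⟨j, hj, rfl⟩ := List.mem_map.mp hw
      obtain ⟨h6, h7⟩ := h3 j (List.mem_range.mp hj)
      refine ⟨u, hu, IsConj.trans ?_ hp⟩
      have e : trF (affI r A c.2.2.1) [j] p = nthN (c.2.2.1.map Prod.snd) j ^^^
          trF (lin A r) (nthW (c.2.2.1.map Prod.fst) j) p := by
        rw [trF_eq]; rfl
      have h8 := eqY h7
      rw [evL_append, evL_append, evL_append] at h8
      rw [e, he.xor _ _ r le_rfl, ← hl _ h6, isConj_iff]
      refine ⟨evL Y (nthW (c.2.2.1.map Prod.fst) j), ?_⟩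
      rw [← mul_assoc (evL Y c.1), ← mul_assoc, ← mul_assoc (evL Y (nthW _ j)), ← h8]
      group) _ _ (by
      intro p hp
      obtain ⟨e, he1, rfl⟩ := List.mem_map.mp (maskL_spec hp)
      obtain ⟨h6, h7⟩ := h4 e he1
      refine ⟨e.2.2, List.mem_of_elem_eq_true h6, ?_⟩
      have := ho _ h7
      rw [evL_append, evL_append, evL_append, evL_invW hev, evL_invW hev, mul_inv_eq_one,
        ← evL_subst, evL_append] at this
      rw [← this, isConj_iff]
      exact ⟨(evL ev e.2.1)⁻¹, by rw [inv_inv]⟩) h5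
  have hv : v % 2 ^ r < 2 ^ r := Nat.mod_lt _ (by positivity)
  have h6 := allR_spec hf _ (Nat.zero_le _) (by omega : v % 2 ^ r < 0 + 2 ^ r)
  rw [← bw_mod v r le_rfl] at hx
  generalize v % 2 ^ r = u at hv h6 hx
  rcases Bool.or_eq_true _ _ ▸ h6 with h7 | h7
  · exact hx ▸ hM u (bit_spec h7)
  · exfalso
    have h8 := eqY h2
    rw [evL_append] at h8
    have h9 : evL Y (bw ((c.2.1 ^^^ trF (lin A r) c.1 u ^^^ u) % 2 ^ r) r) = 1 := by
      rw [bw_mod _ r le_rfl, he.xor _ _ r le_rfl, he.xor _ _ r le_rfl, ← hl _ h1, ← h8, ← hx2, hx]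
      group
    have h10 := hinj _ (Nat.mod_lt _ (by positivity)) h9
    have h11 : Nat.mod (Nat.xor (Nat.xor c.2.1 (trF (lin A r) c.1 u)) u) (2 ^ r) = 0 := h10
    rw [h11] at h7
    exact absurd h7 (by decide)

theorem inv_classes [Finite G] (hev : Good ev inv) (ho : ∀ w, chk w = true → evL ev w = 1)
    {s : ℕ} {M : List ICos} {Cs : List ICls} {Reps : List (List ℕ)}
    (h1 : eaChk chk inv σ r = true) (h2 : ∀ x, 1 ≤ x → x < σ.length → linChk chk inv σ r A x = true)
    (h3 : ∀ i < M.length, cosChk chk inv σ r s M (Cs.map Prod.fst) i = true)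
    (h4 : ∀ c ∈ Cs, clsChk chk inv σ r A Reps c = true)
    (h5 : (decide (r + s < σ.length) && decide (0 < M.length) && nthW (M.map Prod.fst) 0 == []) = true)
    (hT : M.length * 2 ^ r ≤
      Nat.card (gen (evS ev σ) ((List.range (r + s)).map fun l => [l + 1])))
    {o : ℕ} (ho' : Odd o) (hG : Nat.card G = M.length * 2 ^ r * o) {x : G} (hx : x * x = 1) :
    ∃ w ∈ Reps, IsConj x (evL ev w) := by
  have he := ea_of_chk hev ho h1
  have hl := lin_of_chk hev ho he h2
  simp only [Bool.and_eq_true, decide_eq_true_eq, beq_iff_eq] at h5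
  obtain ⟨⟨hrs, hM0⟩, hm0⟩ := h5
  set Y := evS ev σ
  have eqY : ∀ {u v}, eqS chk inv σ u v = true → evL Y u = evL Y v := fun h => eqS_spec hev ho h
  set T := gen Y ((List.range (r + s)).map fun l => [l + 1])
  set mw := nthW (M.map Prod.fst) with hmw
  have hget : ∀ i < M.length, mw i = (M.getD i ([], [], [], [], 0, 0)).1 := fun i hi => by
    rw [hmw, nthW_eq, List.getD_eq_getElem _ _ (by simpa using hi), List.getD_eq_getElem _ _ hi,
      List.getElem_map]
  unfold cosChk at h3
  simp only [Bool.and_eq_true, List.all_eq_true, List.mem_range, Nat.blt_eq, Nat.ble_eq,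
    Bool.or_eq_true] at h3
  have step : ∀ t, r < t → t ≤ r + s → ∀ i < M.length, ∀ v, csI M t i < M.length ∧
      ∃ u, evL Y (mw i) * evL Y (bw v r) * Y t = evL Y (mw (csI M t i)) * evL Y (bw u r) := by
    intro t ht1 ht2 i hi v
    obtain ⟨t', rfl⟩ : ∃ t', t = r + 1 + t' := ⟨t - (r + 1), by omega⟩
    obtain ⟨k1, k2⟩ := (h3 i hi).1.2 t' (by omega)
    have k3 := eqY k2
    rw [evL_append, evL_append, evL_singleton, ← hget i hi] at k3
    have k4 := hl [r + 1 + t'] (by simp [inR]; omega) v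
    rw [evL_singleton] at k4
    refine ⟨k1, nthN (M.getD i ([], [], [], [], 0, 0)).2.2.1 t' ^^^
      trF (lin A r) [r + 1 + t'] v, ?_⟩
    rw [he.xor _ _ r le_rfl, ← mul_assoc, ← hmw] at *
    rw [← k3, ← k4]
    group
  have steps : ∀ w : List ℕ, (∀ t ∈ w, r < t ∧ t ≤ r + s) → ∀ i < M.length, ∀ v,
      tr (csI M) w i < M.length ∧
      ∃ u, evL Y (mw i) * evL Y (bw v r) * evL Y w = evL Y (mw (tr (csI M) w i)) * evL Y (bw u r) := by
    intro w
    induction w with
    | nil => intro _ i hi v; exact ⟨hi, v, by rw [evL_nil, mul_one, tr_nil]⟩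
    | cons t w ih =>
      intro hw i hi v
      obtain ⟨k1, u, k2⟩ := step t (hw t (by simp)).1 (hw t (by simp)).2 i hi v
      obtain ⟨k3, u', k4⟩ := ih (fun y hy => hw y (by simp [hy])) _ k1 u
      exact ⟨k3, u', by rw [evL_cons, ← mul_assoc, k2, k4, tr_cons]⟩
  let f : Fin M.length × Fin (2 ^ r) → G := fun e => evL Y (mw e.1) * evL Y (bw e.2 r)
  have hf : ∀ i < M.length, ∀ v, evL Y (mw i) * evL Y (bw v r) ∈ Set.range f := fun i hi v =>
    ⟨(⟨i, hi⟩, ⟨v % 2 ^ r, Nat.mod_lt _ (by positivity)⟩), by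
      simp only [f]; rw [bw_mod v r le_rfl]⟩
  have cover : ∀ y ∈ T, y ∈ Set.range f := by
    intro y hy
    refine Subgroup.closure_induction_right (p := fun y _ => y ∈ Set.range f) ?_ ?_ ?_ hy
    · have := hf 0 hM0 0
      rwa [hm0, bw_zero, evL_nil, one_mul] at this
    · rintro _ _ _ ⟨w, hw, rfl⟩ ⟨e, rfl⟩
      obtain ⟨l, hl', rfl⟩ := List.mem_map.mp hw
      rw [List.mem_range] at hl'
      rw [evL_singleton]
      by_cases hlr : l < r
      · have := hf e.1 e.1.2 (e.2 ^^^ 2 ^ l)
        rwa [he.xor _ _ r le_rfl, bw_pow, if_pos hlr, evL_singleton, ← mul_assoc] at this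
      · obtain ⟨k1, u, k2⟩ := step (l + 1) (by omega) (by omega) e.1 e.1.2 e.2
        simp only [f]
        rw [k2]
        exact hf _ k1 u
    · rintro y _ _ ⟨w, hw, rfl⟩ hy'
      have hmul : ∀ z ∈ Set.range f, z * evL Y w ∈ Set.range f := by
        rintro _ ⟨e, rfl⟩
        obtain ⟨l, hl', rfl⟩ := List.mem_map.mp hw
        rw [List.mem_range] at hl'
        rw [evL_singleton]
        by_cases hlr : l < r
        · have := hf e.1 e.1.2 (e.2 ^^^ 2 ^ l)
          rwa [he.xor _ _ r le_rfl, bw_pow, if_pos hlr, evL_singleton, ← mul_assoc] at this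
        · obtain ⟨k1, u, k2⟩ := step (l + 1) (by omega) (by omega) e.1 e.1.2 e.2
          simp only [f]
          rw [k2]
          exact hf _ k1 u
      have hp : ∀ k : ℕ, y * evL Y w ^ k ∈ Set.range f := fun k => by
        induction k with
        | zero => simpa using hy'
        | succ k ih => rw [pow_succ, ← mul_assoc]; exact hmul _ ih
      have ho1 := orderOf_pos (evL Y w)
      have : (evL Y w)⁻¹ = evL Y w ^ (orderOf (evL Y w) - 1) := by
        rw [inv_eq_iff_mul_eq_one, ← pow_succ', Nat.sub_add_cancel ho1, pow_orderOf_eq_one]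
      rw [this]
      exact hp _
  have c1 : Nat.card T ≤ (Set.range f).ncard := by
    rw [← Nat.card_coe_set_eq]
    exact Nat.card_le_card_of_injective (fun y : T => (⟨y.1, cover y.1 y.2⟩ : Set.range f))
      fun a b e => Subtype.ext (Subtype.mk.inj e)
  have c2 : Nat.card (Fin M.length × Fin (2 ^ r)) = M.length * 2 ^ r := by simp
  have c3 : (Set.range f).ncard ≤ M.length * 2 ^ r := by
    rw [← c2, ← Set.image_univ, ← Set.ncard_univ]
    exact Set.ncard_image_le
  have finj : Function.Injective f := by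
    rw [← Set.injOn_univ]
    refine Set.injOn_of_ncard_image_eq ?_ Set.finite_univ
    rw [Set.image_univ, Set.ncard_univ, c2]
    omega
  have zero : ∀ i < M.length, ∀ v < 2 ^ r, evL Y (mw i) * evL Y (bw v r) = 1 → i = 0 ∧ v = 0 := by
    intro i hi v hv e
    have := @finj (⟨i, hi⟩, ⟨v, hv⟩) (⟨0, hM0⟩, ⟨0, by positivity⟩) (by
      simp only [f]; rw [e, hm0, bw_zero, evL_nil, one_mul])
    simpa using this
  have hidx : T.index = o := index_of_cards (a := M.length * 2 ^ r) (by omega) (by rw [hG, mul_comm])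
  obtain ⟨g, hg⟩ := exists_conj_mem_of_odd (T := T) (hidx ▸ ho') (x := x) (k := 1)
    (by rw [pow_one, sq, hx])
  obtain ⟨⟨⟨i, hi⟩, ⟨v, hv⟩⟩, e⟩ := cover _ hg
  simp only [f] at e
  have hy2 : (g⁻¹ * x * g) * (g⁻¹ * x * g) = 1 := by
    rw [show g⁻¹ * x * g * (g⁻¹ * x * g) = g⁻¹ * (x * x) * g by group, hx]; group
  have hc : IsConj x (g⁻¹ * x * g) := isConj_iff.mpr ⟨g⁻¹, by rw [inv_inv]⟩
  generalize g⁻¹ * x * g = y at e hy2 hc
  obtain ⟨⟨k1, _⟩, k2⟩ := h3 i hi
  rw [← hget i hi] at k1 k2
  rcases k2 with k2 | ⟨⟨k2, k3⟩, k4⟩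
  · exfalso
    obtain ⟨k3, u, k4⟩ := steps _ k1 i hi v
    have k5 : evL Y (mw (tr (csI M) (mw i) i)) * evL Y (bw ((u ^^^ v) % 2 ^ r) r) = 1 := by
      rw [bw_mod _ r le_rfl, he.xor _ _ r le_rfl, ← mul_assoc, ← k4, ← hy2, ← e]
      group
    rw [trF_eq, (zero _ k3 _ (Nat.mod_lt _ (by positivity)) k5).1] at k2
    exact absurd k2 (by decide)
  · generalize (M.getD i ([], [], [], [], 0, 0)).2.2.2 = d at k2 k3 k4
    have k5 := eqY k4
    rw [evL_append, evL_append, evL_append, nthW_eq, List.getD_eq_getElem _ _ k3,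
      List.getElem_map] at k5
    have k6 : d.2.2 < Cs.length := by simpa using k3
    obtain ⟨w, hw, k7⟩ := cls_sound hev ho he hl (fun v hv e => (zero 0 hM0 v hv (by
      rw [hm0, evL_nil, one_mul, e])).2) (h4 _ (List.getElem_mem k6))
      (d.2.1 ^^^ trF (lin A r) d.1 v) (x := (evL Y d.1)⁻¹ * y * evL Y d.1) (by
        rw [he.xor _ _ r le_rfl, ← hl _ k2, ← e, ← mul_assoc, ← mul_assoc, ← mul_assoc]
        rw [show evL Y Cs[d.2.2].1 * evL Y (bw d.2.1 r) = (evL Y d.1)⁻¹ * (evL Y d.1 *
          evL Y Cs[d.2.2].1 * evL Y (bw d.2.1 r)) by group, ← k5]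
        group) (by
        rw [show (evL Y d.1)⁻¹ * y * evL Y d.1 * ((evL Y d.1)⁻¹ * y * evL Y d.1) =
          (evL Y d.1)⁻¹ * (y * y) * evL Y d.1 by group, hy2]; group)
    exact ⟨w, hw, hc.trans ((isConj_iff.mpr ⟨(evL Y d.1)⁻¹, by rw [inv_inv]⟩).trans k7)⟩

theorem mem_subst {K : Subgroup G} {V : List (List ℕ)} (h : ∀ w ∈ V, evL (evS ev σ) w ∈ K) :
    ∀ w ∈ V.map (subst σ), evL ev w ∈ K := by
  intro w hw
  obtain ⟨u, hu, rfl⟩ := List.mem_map.mp hw
  rw [← evL_subst]
  exact h u hu

end Cfsg.H6
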